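import Mathlib
import Cfsg.Agent.Lib.FrattiniBasic
import Cfsg.Agent.Lib.FrattiniPGroup

/-!
# `p`-groups acting irreducibly on small elementary abelian `2`-groups

The final step in the Hall–Higman bound for Fermat primes: if a `p`-group generated by `y₁, y₂` acts irreducibly
on an elementary abelian `2`-group `E`, `y_i` acts trivially on `E / M_i`, `|M_i| = (p^(m_i) - 1)²`, then
`y₁^(p^(m₁ - 1))` and `y₂^(p^(m₂ - 1))` commute on `E`.
-/

set_option autoImplicit false

namespace Cfsg.Agent.H450.Elem

open Subgroup MulAction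
open scoped commutatorElement

/-- In a finite `p`-group a subgroup of index at most `p` contains the commutator subgroup. -/
theorem commutator_le_of_index_le {R : Type*} [Group R] [Finite R] {p : ℕ} [hp : Fact p.Prime]
    (hR : IsPGroup p R) (H : Subgroup R) (h : H.index ≤ p) : commutator R ≤ H := by
  rcases eq_top_or_exists_le_coatom H with h1 | ⟨M, hM, hle⟩
  · rw [h1]; exact le_top
  · have h2 := Lib.FrattiniPGroup.index_of_coatom hR hM
    have h3 := Subgroup.relIndex_mul_index hle
    rw [h2] at h3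
    have h4 : H.relIndex M ≤ 1 := by
      by_contra hcon
      have : 2 * p ≤ H.relIndex M * p := Nat.mul_le_mul_right p (by omega)
      have := hp.out.pos
      omega
    have h5 : H.relIndex M = 1 := by
      have : H.relIndex M ≠ 0 := by
        intro h0
        rw [h0, zero_mul] at h3
        exact Subgroup.index_ne_zero_of_finite h3.symm
      omega
    have h6 : M ≤ H := Subgroup.relIndex_eq_one.mp h5
    exact (Lib.FrattiniBasic.commutator_le_of_isCoatom hR hM).trans h6

section counting

variable {R E : Type*} [Group R] [Finite R] [Group E] [Finite E] (β : R →* MulAut E)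

/-- the stabilizer of a point -/
def stab (e : E) : Subgroup R where
  carrier := {r | β r e = e}
  one_mem' := by simp
  mul_mem' := by
    intro a b ha hb
    show β (a * b) e = e
    rw [map_mul, MulAut.mul_apply]
    rw [show β b e = e from hb]; exact ha
  inv_mem' := by
    intro a ha
    show β a⁻¹ e = e
    rw [map_inv, MulAut.inv_apply, MulEquiv.symm_apply_eq]
    exact (show β a e = e from ha).symm

omit [Finite R] [Finite E] in
theorem mem_stab {e : E} {r : R} : r ∈ stab β e ↔ β r e = e := Iff.rfl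

omit [Finite R] in
/-- if every nontrivial point stabilizer has index divisible by `q` then `q ∣ |D| - 1`. -/
theorem dvd_card_sub_one_of_invariant (D : Subgroup E) (hD : ∀ r : R, ∀ e ∈ D, β r e ∈ D) (q : ℕ)
    (h : ∀ e ∈ D, e ≠ 1 → q ∣ (stab β e).index) : q ∣ Nat.card D - 1 := by
  classical
  let _ : MulAction R D :=
    { smul := fun r e => ⟨β r e, hD r e e.2⟩
      one_smul := fun e => Subtype.ext (by show β 1 e = e; simp)
      mul_smul := fun r s e => Subtype.ext (by show β (r * s) e = β r (β s e); simp) }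
  have hs : ∀ e : D, MulAction.stabilizer R e = stab β (e : E) := by
    intro e
    ext r
    rw [MulAction.mem_stabilizer_iff, mem_stab]
    exact ⟨fun h => congrArg Subtype.val h, fun h => Subtype.ext h⟩
  have : Fintype (Quotient (orbitRel R D)) := Fintype.ofFinite _
  have h1 : Nat.card D = ∑ ω : Quotient (orbitRel R D), Nat.card (orbit R ω.out) := by
    rw [Nat.card_congr (selfEquivSigmaOrbits R D), Nat.card_sigma]
  have h2 : ∀ e : D, Nat.card (orbit R e) = (stab β (e : E)).index := by
    intro e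
    rw [← hs, MulAction.index_stabilizer, Nat.card_coe_set_eq]
  let ω₁ : Quotient (orbitRel R D) := Quotient.mk'' 1
  have hone : ∀ r : R, r • (1 : D) = 1 := fun r => Subtype.ext (map_one (β r))
  have horb : ∀ e : D, e ∈ orbit R (1 : D) → e = 1 := by
    rintro e ⟨r, rfl⟩
    exact hone r
  have h3 : ω₁.out = 1 := by
    apply horb
    have : (orbitRel R D) ω₁.out 1 := Quotient.exact (Quotient.out_eq ω₁)
    exact this
  rw [← Finset.add_sum_erase _ _ (Finset.mem_univ ω₁), h3] at h1
  have h4 : Nat.card (orbit R (1 : D)) = 1 := by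
    have : orbit R (1 : D) = {1} := by
      ext e
      constructor
      · intro he; exact horb e he
      · rintro rfl; exact mem_orbit_self _
    rw [this]
    simp
  rw [h4] at h1
  have h5 : q ∣ ∑ ω ∈ Finset.univ.erase ω₁, Nat.card (orbit R ω.out) := by
    refine Finset.dvd_sum fun ω hω => ?_
    rw [h2]
    apply h _ ω.out.2
    intro h6
    apply (Finset.mem_erase.mp hω).1
    rw [← Quotient.out_eq ω, show ω.out = 1 from Subtype.ext h6]
  have h6 : Nat.card D - 1 = ∑ ω ∈ Finset.univ.erase ω₁, Nat.card (orbit R ω.out) := by omega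
  rw [h6]
  exact h5

omit [Finite R] in
/-- if every nontrivial point stabilizer has index divisible by `q` then `q ∣ |E| - 1`. -/
theorem dvd_card_sub_one (q : ℕ) (h : ∀ e : E, e ≠ 1 → q ∣ (stab β e).index) : q ∣ Nat.card E - 1 := by
  have h1 := dvd_card_sub_one_of_invariant β ⊤ (fun _ _ _ => trivial) q (fun e _ he => h e he)
  rwa [Subgroup.card_top] at h1

/-- for a `p`-group: if `p^j ∤ |E| - 1` some nontrivial point has an orbit of length at most `p^(j-1)`. -/
theorem exists_small_index {p : ℕ} [hp : Fact p.Prime] (hR : IsPGroup p R) (j : ℕ)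
    (h : ¬ p ^ (j + 1) ∣ Nat.card E - 1) : ∃ e : E, e ≠ 1 ∧ (stab β e).index ≤ p ^ j := by
  by_contra hcon
  push Not at hcon
  apply h
  apply dvd_card_sub_one β
  intro e he
  obtain ⟨n, hn⟩ := hR.index (stab β e)
  have h1 := hcon e he
  rw [hn] at h1 ⊢
  have h2 : j < n := (Nat.pow_lt_pow_iff_right hp.out.one_lt).mp h1
  exact pow_dvd_pow p h2

/-- irreducibility -/
def Irr : Prop := ∀ D : Subgroup E, (∀ r : R, ∀ e ∈ D, β r e ∈ D) → D = ⊥ ∨ D = ⊤

omit [Finite R] [Finite E] in
/-- fixed points of a normal subgroup -/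
theorem fixed_of_normal (hirr : Irr β) (N : Subgroup R) [hN : N.Normal] {e : E} (he : e ≠ 1)
    (h : ∀ n ∈ N, β n e = e) : ∀ n ∈ N, ∀ x : E, β n x = x := by
  let D : Subgroup E :=
    { carrier := {x | ∀ n ∈ N, β n x = x}
      one_mem' := fun n _ => map_one _
      mul_mem' := by
        intro a b ha hb n hn
        rw [map_mul, ha n hn, hb n hn]
      inv_mem' := by
        intro a ha n hn
        rw [map_inv, ha n hn] }
  rcases hirr D (by
    intro r x hx n hn
    have h1 := hx (r⁻¹ * n * r) (by simpa using hN.conj_mem n hn r⁻¹)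
    have h2 : β n (β r x) = β r (β (r⁻¹ * n * r) x) := by
      rw [← MulAut.mul_apply, ← MulAut.mul_apply, ← map_mul, ← map_mul]
      congr 2
      group
    rw [h2, h1]) with h1 | h1
  · exfalso
    apply he
    have : e ∈ D := h
    rw [h1] at this
    exact Subgroup.mem_bot.mp this
  · intro n hn x
    have : x ∈ D := by rw [h1]; trivial
    exact this n hn

omit [Finite E] in
/-- a short orbit forces commutativity -/
theorem comm_of_index_le {p : ℕ} [hp : Fact p.Prime] (hR : IsPGroup p R) (hirr : Irr β) {e : E}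
    (he : e ≠ 1) (h : (stab β e).index ≤ p) (r s : R) (x : E) : β ⁅r, s⁆ x = x := by
  have h1 := commutator_le_of_index_le hR (stab β e) h
  exact fixed_of_normal β hirr (commutator R) he (fun n hn => h1 hn) _
    (commutator_mem_commutator (mem_top r) (mem_top s)) x

end counting

/-- arithmetic: `p = 2^k + 1`, `1 ≤ d ≤ 4k` implies `p² ∤ 2^d - 1`. -/
theorem no_sq_dvd {p k d : ℕ} (hp : p.Prime) (hk : 2 ^ k + 1 = p) (hk1 : 1 ≤ k) (hd1 : 1 ≤ d)
    (hd : d ≤ 4 * k) : ¬ p ^ 2 ∣ 2 ^ d - 1 := by
  intro h
  have hp2 : 2 < p := by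
    have : 2 ^ 1 ≤ 2 ^ k := Nat.pow_le_pow_right (by norm_num) hk1
    omega
  have hZ : (p : ℤ) ^ 2 ∣ (2 : ℤ) ^ d - 1 := by
    have h1 : 1 ≤ 2 ^ d := Nat.one_le_two_pow
    have h2 := Int.natCast_dvd_natCast.mpr h
    rw [Nat.cast_sub h1] at h2
    exact_mod_cast h2
  have hk' : (2 : ℤ) ^ k = p - 1 := by
    rw [← hk]; push_cast; ring
  obtain ⟨q, r, hdq, hrk, hq4⟩ : ∃ q r : ℕ, d = k * q + r ∧ r < k ∧ q ≤ 4 := by
    refine ⟨d / k, d % k, (Nat.div_add_mod d k).symm, Nat.mod_lt _ hk1, ?_⟩
    have h1 : d / k ≤ (4 * k) / k := Nat.div_le_div_right hd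
    rwa [Nat.mul_div_cancel _ hk1] at h1
  have h2d : (2 : ℤ) ^ d = (p - 1) ^ q * 2 ^ r := by
    rw [hdq, pow_add, pow_mul, hk']
  have hpd : (p : ℤ) ∣ (2 : ℤ) ^ d - 1 := dvd_trans (dvd_pow_self _ (by norm_num)) hZ
  -- mod p
  have h3 : (p : ℤ) ∣ (-1) ^ q * 2 ^ r - 1 := by
    have h4 : (p : ℤ) ∣ ((p : ℤ) - 1) ^ q - (-1) ^ q := by
      have h5 := sub_dvd_pow_sub_pow ((p : ℤ) - 1) (-1) q
      have h6 : (p : ℤ) - 1 - -1 = p := by ring
      rwa [h6] at h5
    have h7 : (-1) ^ q * 2 ^ r - 1 = ((2 : ℤ) ^ d - 1) - (((p : ℤ) - 1) ^ q - (-1) ^ q) * 2 ^ r := by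
      rw [h2d]; ring
    rw [h7]
    exact dvd_sub hpd (h4.mul_right _)
  have h2r : (2 : ℤ) ^ r * 2 ≤ 2 ^ k := by
    rw [← pow_succ]
    exact pow_le_pow_right₀ (by norm_num) (by omega)
  have h2r1 : (1 : ℤ) ≤ 2 ^ r := one_le_pow₀ (by norm_num)
  have hpz : (2 : ℤ) < p := by exact_mod_cast hp2
  -- the value is zero
  have hval : (-1 : ℤ) ^ q * 2 ^ r - 1 = 0 := by
    refine Int.eq_zero_of_abs_lt_dvd h3 ?_
    rw [abs_lt]
    rcases neg_one_pow_eq_or ℤ q with hs | hs
    · rw [hs]
      constructor <;> nlinarith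
    · rw [hs]
      constructor <;> nlinarith
  rcases neg_one_pow_eq_or ℤ q with hs | hs
  · rw [hs] at hval
    have hr0 : (2 : ℤ) ^ r = 1 := by linarith
    have hZ' : (p : ℤ) ^ 2 ∣ (p - 1) ^ q - 1 := by
      rw [h2d, hr0, mul_one] at hZ
      exact hZ
    have hr00 : r = 0 := by
      by_contra hne
      have : (2 : ℤ) ^ 1 ≤ 2 ^ r := pow_le_pow_right₀ (by norm_num) (by omega)
      linarith
    have hqne : q ≠ 0 := by
      intro h0
      rw [h0, hr00] at hdq
      omega
    have hq24 : q = 2 ∨ q = 4 := by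
      have : q = 1 ∨ q = 2 ∨ q = 3 ∨ q = 4 := by omega
      rcases this with h1 | h1 | h1 | h1
      · rw [h1] at hs; norm_num at hs
      · exact Or.inl h1
      · rw [h1] at hs; norm_num at hs
      · exact Or.inr h1
    have h4p : (p : ℤ) ^ 2 ∣ 4 * p := by
      rcases hq24 with h1 | h1
      · rw [h1] at hZ'
        have : (4 : ℤ) * p = 2 * (p ^ 2 - ((p - 1) ^ 2 - 1)) := by ring
        rw [this]
        exact (dvd_sub (dvd_refl _) hZ').mul_left _
      · rw [h1] at hZ'
        have : (4 : ℤ) * p = p ^ 2 * (p ^ 2 - 4 * p + 6) - ((p - 1) ^ 4 - 1) := by ring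
        rw [this]
        exact dvd_sub (dvd_mul_right _ _) hZ'
    have hp4 : (p : ℤ) ∣ 4 := by
      obtain ⟨c, hc⟩ := h4p
      refine ⟨c, ?_⟩
      have hp0 : (p : ℤ) ≠ 0 := by linarith
      have : (p : ℤ) * 4 = p * (p * c) := by linarith
      exact mul_left_cancel₀ hp0 this
    have hp4' : p ∣ 2 ^ 2 := by
      have : (p : ℤ) ∣ ((2 ^ 2 : ℕ) : ℤ) := by simpa using hp4
      exact_mod_cast this
    have := (Nat.prime_dvd_prime_iff_eq hp Nat.prime_two).mp (hp.dvd_of_dvd_pow hp4')
    omega
  · rw [hs] at hval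
    linarith

/-- arithmetic: `p^m - 1 = 2^b` with `m ≥ 2` only for `p^m = 9`. -/
theorem eq_one_or_nine {p m b : ℕ} (hp : p.Prime) (hp2 : p ≠ 2) (hm : 1 ≤ m) (h : p ^ m - 1 = 2 ^ b) :
    m = 1 ∨ (p = 3 ∧ m = 2) := by
  have hp3 : 3 ≤ p := by
    have := hp.two_le
    omega
  have hpodd : Odd p := hp.odd_of_ne_two hp2
  rcases Nat.even_or_odd m with ⟨j, hj⟩ | hodd
  · right
    have hj1 : 1 ≤ j := by omega
    have hpj : 3 ≤ p ^ j := hp3.trans (Nat.le_self_pow (by omega) p)
    have hfac : (p ^ j - 1) * (p ^ j + 1) = 2 ^ b := by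
      rw [← h, hj, pow_add]
      obtain ⟨c, hc⟩ : ∃ c, p ^ j = c + 1 := ⟨p ^ j - 1, by omega⟩
      rw [hc]
      simp only [Nat.add_sub_cancel]
      have : (c + 1) * (c + 1) = c * (c + 1 + 1) + 1 := by ring
      rw [this]
      omega
    obtain ⟨a, _, ha⟩ := (Nat.dvd_prime_pow Nat.prime_two).mp (Dvd.intro _ hfac)
    obtain ⟨c, _, hc⟩ := (Nat.dvd_prime_pow Nat.prime_two).mp (Dvd.intro_left _ hfac)
    have h1 : 2 ^ c = 2 ^ a + 2 := by omega
    have ha1 : a = 1 := by
      rcases Nat.lt_or_ge a 2 with h2 | h2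
      · have : a ≠ 0 := by
          rintro rfl
          simp only [pow_zero] at ha
          omega
        omega
      · exfalso
        obtain ⟨a', rfl⟩ := Nat.exists_eq_add_of_le h2
        have hc2 : 2 ≤ c := by
          by_contra hcon
          have : 2 ^ c ≤ 2 ^ 1 := Nat.pow_le_pow_right (by norm_num) (by omega)
          have : 0 < 2 ^ (2 + a') := by positivity
          omega
        obtain ⟨c', rfl⟩ := Nat.exists_eq_add_of_le hc2
        rw [pow_add, pow_add] at h1
        omega
    rw [ha1] at ha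
    have hp3' : p ^ j = 3 := by omega
    have h5 : p = 3 ∧ j = 1 := by
      rcases Nat.lt_or_ge j 2 with h6 | h6
      · have : j = 1 := by omega
        subst this
        simp at hp3'
        exact ⟨hp3', rfl⟩
      · exfalso
        have : p ^ 2 ≤ p ^ j := Nat.pow_le_pow_right (by omega) h6
        nlinarith
    exact ⟨h5.1, by omega⟩
  · left
    by_contra hm1
    have h1 : (∑ i ∈ Finset.range m, p ^ i) ∣ 2 ^ b := by
      rw [← h]
      have := Nat.geomSum_eq hp.two_le m
      rw [this]
      have h2 : (p - 1) ∣ p ^ m - 1 := by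
        simpa using Nat.sub_dvd_pow_sub_pow p 1 m
      exact Nat.div_dvd_of_dvd h2
    have h2 : Odd (∑ i ∈ Finset.range m, p ^ i) := by
      rw [Finset.odd_sum_iff_odd_card_odd]
      have : (Finset.range m).filter (fun i => Odd (p ^ i)) = Finset.range m := by
        apply Finset.filter_true_of_mem
        intro i _
        exact hpodd.pow
      rw [this]
      simpa using hodd
    obtain ⟨c, _, hc⟩ := (Nat.dvd_prime_pow Nat.prime_two).mp h1
    have hc0 : c = 0 := by
      by_contra hne
      rw [hc] at h2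
      exact (Nat.not_odd_iff_even.mpr (Even.pow_of_ne_zero even_two hne)) h2
    rw [hc0, pow_zero] at hc
    have h3 : ∑ i ∈ Finset.range 2, p ^ i ≤ ∑ i ∈ Finset.range m, p ^ i := by
      apply Finset.sum_le_sum_of_subset
      intro x hx
      simp only [Finset.mem_range] at hx ⊢
      omega
    rw [hc] at h3
    simp only [Finset.sum_range_succ, Finset.sum_range_zero, pow_zero, pow_one] at h3
    omega

section nine

variable {E : Type*} [CommGroup E] [Finite E]

/-- an automorphism of order `9` of a group of order `64` with fixed-point-free cube: the cube is central in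
every irreducible `3`-group containing it. -/
theorem central_of_nine (hcard : Nat.card E = 64) (R : Subgroup (MulAut E)) (hR : IsPGroup 3 R)
    (hirr : Irr R.subtype) (y : MulAut E) (hy : y ∈ R) (hy9 : y ^ 9 = 1)
    (hfix : ∀ e : E, (y ^ 3) e = e → e = 1) (r : MulAut E) (hr : r ∈ R) : Commute r (y ^ 3) := by
  have hp3 : Fact (Nat.Prime 3) := ⟨Nat.prime_three⟩
  have hnt : Nontrivial E := by
    rw [← Finite.one_lt_card_iff_nontrivial]
    omega
  obtain ⟨e₀, he₀⟩ := exists_ne (1 : E)
  have hy3 : y ^ 3 ≠ 1 := by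
    intro h
    exact he₀ (hfix e₀ (by rw [h]; rfl))
  have hord : orderOf y = 9 := by
    have := orderOf_eq_prime_pow (p := 3) (n := 1) (x := y) (by simpa using hy3) (by simpa using hy9)
    simpa using this
  -- `y` is irreducible
  have hyirr : ∀ D : Subgroup E, (∀ e ∈ D, y e ∈ D) → D = ⊥ ∨ D = ⊤ := by
    intro D hD
    have hDk : ∀ n : ℕ, ∀ e ∈ D, (y ^ n) e ∈ D := by
      intro n
      induction n with
      | zero => intro e he; simpa using he
      | succ n ih =>
        intro e he
        rw [pow_succ, MulAut.mul_apply]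
        exact ih _ (hD e he)
    have h1 : 9 ∣ Nat.card D - 1 := by
      apply dvd_card_sub_one_of_invariant (zpowers y).subtype D
      · rintro ⟨g, hg⟩ e he
        obtain ⟨n, rfl⟩ := (mem_powers_iff_mem_zpowers.mpr hg)
        exact hDk n e he
      · intro e heD he
        have h2 : stab (zpowers y).subtype e = ⊥ := by
          rw [eq_bot_iff]
          rintro ⟨g, hg⟩ hge
          obtain ⟨i, rfl⟩ := hg
          rw [mem_stab] at hge
          change (y ^ i) e = e at hge
          rw [Subgroup.mem_bot]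
          apply Subtype.ext
          show y ^ i = 1
          let S : Subgroup (MulAut E) :=
            { carrier := {a | a e = e}
              one_mem' := rfl
              mul_mem' := by
                intro a b ha hb
                show (a * b) e = e
                rw [MulAut.mul_apply, show b e = e from hb]; exact ha
              inv_mem' := by
                intro a ha
                show a⁻¹ e = e
                rw [MulAut.inv_apply, MulEquiv.symm_apply_eq]
                exact (show a e = e from ha).symm }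
          have hS : y ^ i ∈ S := hge
          have hg1 : y ^ ((Int.gcd i 9 : ℕ) : ℤ) ∈ S := by
            rw [Int.gcd_eq_gcd_ab, zpow_add, zpow_mul, zpow_mul]
            refine S.mul_mem (S.zpow_mem hS _) ?_
            have : y ^ (9 : ℤ) = 1 := by exact_mod_cast hy9
            rw [this, one_zpow]
            exact S.one_mem
          have hd : Int.gcd i 9 ∣ 9 := by
            have := Int.gcd_dvd_right i 9
            exact_mod_cast this
          have hd2 : Int.gcd i 9 ∣ 3 ^ 2 := by simpa using hd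
          obtain ⟨c, hc2, hc⟩ := (Nat.dvd_prime_pow Nat.prime_three).mp hd2
          have hy3S : y ^ 3 ∉ S := fun h => he (hfix e h)
          have hc3 : c = 2 := by
            have : c = 0 ∨ c = 1 ∨ c = 2 := by omega
            rcases this with rfl | rfl | rfl
            · exfalso
              rw [hc] at hg1
              have : y ∈ S := by simpa using hg1
              exact hy3S (S.pow_mem this 3)
            · exfalso
              rw [hc] at hg1
              apply hy3S
              have : y ^ ((3 ^ 1 : ℕ) : ℤ) = y ^ 3 := by norm_cast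
              rwa [this] at hg1
            · rfl
          have h9i : (9 : ℤ) ∣ i := by
            have := Int.gcd_dvd_left i 9
            rw [hc, hc3] at this
            simpa using this
          obtain ⟨j, rfl⟩ := h9i
          rw [zpow_mul]
          have : y ^ (9 : ℤ) = 1 := by exact_mod_cast hy9
          rw [this, one_zpow]
        rw [h2, Subgroup.index_bot, Nat.card_zpowers, hord]
    have h2 : Nat.card D ∣ 2 ^ 6 := by
      have := Subgroup.card_subgroup_dvd_card D
      rw [hcard] at this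
      simpa using this
    obtain ⟨b, hb6, hb⟩ := (Nat.dvd_prime_pow Nat.prime_two).mp h2
    have h3 : b = 0 ∨ b = 6 := by
      rw [hb] at h1
      interval_cases b <;> first | (left; rfl) | (right; rfl) | (exfalso; revert h1; decide)
    rcases h3 with rfl | rfl
    · left
      exact Subgroup.eq_bot_of_card_eq _ (by simpa using hb)
    · right
      apply Subgroup.eq_top_of_card_eq
      rw [hb, hcard]
      norm_num
  -- a central element of order three
  have hRnt : Nontrivial R := by
    refine ⟨⟨⟨y, hy⟩, 1, ?_⟩⟩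
    intro h
    have : y = 1 := congrArg Subtype.val h
    rw [this] at hy3
    exact hy3 (one_pow 3)
  have hcn := hR.center_nontrivial
  have hcp : IsPGroup 3 (center R) := hR.to_subgroup _
  obtain ⟨n, hn⟩ := (IsPGroup.iff_card).mp hcp
  have hn0 : n ≠ 0 := by
    rintro rfl
    have := Finite.one_lt_card (α := center R)
    omega
  obtain ⟨⟨⟨c, hcR⟩, hcc⟩, hcord⟩ := exists_prime_orderOf_dvd_card' (G := center R) 3
    (by rw [hn]; exact dvd_pow_self 3 hn0)
  have hc3 : c ^ 3 = 1 := by
    have h1 := pow_orderOf_eq_one (⟨⟨c, hcR⟩, hcc⟩ : center R)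
    rw [hcord] at h1
    have h2 := congrArg (fun u : center R => ((u : R) : MulAut E)) h1
    simpa using h2
  have hc1 : c ≠ 1 := by
    rintro rfl
    have : orderOf (⟨⟨1, hcR⟩, hcc⟩ : center R) = 1 := by
      rw [orderOf_eq_one_iff]
      rfl
    omega
  have hcomm : ∀ s ∈ R, Commute c s := by
    intro s hs
    have := (Subgroup.mem_center_iff.mp hcc) ⟨s, hs⟩
    have h2 := congrArg Subtype.val this
    exact h2.symm
  have hcommA : ∀ s ∈ R, ∀ e : E, c (s e) = s (c e) := by
    intro s hs e
    have := hcomm s hs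
    have h2 := congrArg (fun u : MulAut E => u e) this.eq
    simpa using h2
  have hcfix : ∀ e : E, c e = e → e = 1 := by
    let F : Subgroup E :=
      { carrier := {e | c e = e}
        one_mem' := map_one c
        mul_mem' := by
          intro a b ha hb
          show c (a * b) = a * b
          rw [map_mul, show c a = a from ha, show c b = b from hb]
        inv_mem' := by
          intro a ha
          show c a⁻¹ = a⁻¹
          rw [map_inv, show c a = a from ha] }
    have hF := hirr F (by
      rintro ⟨s, hs⟩ e he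
      show c (s e) = s e
      rw [hcommA s hs, show c e = e from he])
    rcases hF with h1 | h1
    · intro e he
      have : e ∈ F := he
      rw [h1] at this
      exact Subgroup.mem_bot.mp this
    · exfalso
      apply hc1
      ext e
      have : e ∈ F := by rw [h1]; trivial
      exact this
  set z := y ^ 3 with hz
  have hzR : z ∈ R := R.pow_mem hy 3
  have hz3 : z ^ 3 = 1 := by
    rw [hz, ← pow_mul]; exact hy9
  have hcsum : ∀ e : E, e * c e * c (c e) = 1 := by
    intro e
    apply hcfix
    have : c (c (c e)) = e := by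
      have := congrArg (fun u : MulAut E => u e) hc3
      simpa [pow_succ] using this
    rw [map_mul, map_mul, this]
    rw [mul_comm (c e * c (c e)) e, mul_assoc]
  have hz3' : ∀ e : E, z (z (z e)) = e := by
    intro e
    have := congrArg (fun u : MulAut E => u e) hz3
    simpa [pow_succ] using this
  have hzsum : ∀ e : E, e * z e * z (z e) = 1 := by
    intro e
    apply hfix
    rw [map_mul, map_mul, hz3']
    rw [mul_comm (z e * z (z e)) e, mul_assoc]
  let D : Subgroup E :=
    { carrier := {e | c e = z e}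
      one_mem' := by show c 1 = z 1; rw [map_one, map_one]
      mul_mem' := by
        intro a b ha hb
        show c (a * b) = z (a * b)
        rw [map_mul, map_mul, show c a = z a from ha, show c b = z b from hb]
      inv_mem' := by
        intro a ha
        show c a⁻¹ = z a⁻¹
        rw [map_inv, map_inv, show c a = z a from ha] }
  have hyz : ∀ e : E, y (z e) = z (y e) := by
    intro e
    have : y * z = z * y := by rw [hz, ← pow_succ', ← pow_succ]
    have h2 := congrArg (fun u : MulAut E => u e) this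
    simpa using h2
  rcases hyirr D (by
    intro e he
    show c (y e) = z (y e)
    rw [hcommA y hy, show c e = z e from he, hyz]) with h1 | h1
  · have hcz : z = c * c := by
      have h2 : ∀ e : E, c e = z (z e) := by
        intro e
        have h3 : c e * (z (z e))⁻¹ ∈ D := by
          show c (c e * (z (z e))⁻¹) = z (c e * (z (z e))⁻¹)
          rw [map_mul, map_mul, map_inv, map_inv, hz3', hcommA z hzR, hcommA z hzR]
          have h4 := hcsum e
          have h5 := hzsum (c e)
          have h6 : c (c e) = (e * c e)⁻¹ := by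
            rw [eq_inv_iff_mul_eq_one, mul_comm]; exact h4
          have h7 : z (z (c e)) = (c e * z (c e))⁻¹ := by
            rw [eq_inv_iff_mul_eq_one, mul_comm]; exact h5
          rw [h6, h7, inv_inv]
          generalize c e = a
          generalize z a = b
          rw [mul_inv, ← mul_assoc, mul_assoc e⁻¹, inv_mul_cancel, mul_one, mul_comm]
        rw [h1, Subgroup.mem_bot, mul_inv_eq_one] at h3
        exact h3
      ext e
      rw [MulAut.mul_apply, h2, h2, hz3']
    have h2 : Commute r (c * c) := (hcomm r hr).symm.mul_right (hcomm r hr).symm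
    rwa [← hcz] at h2
  · have hcz : z = c := by
      ext e
      have : e ∈ D := by rw [h1]; trivial
      exact (show c e = z e from this).symm
    have h2 : Commute r c := (hcomm r hr).symm
    rwa [← hcz] at h2

end nine

section final

variable {E : Type*} [CommGroup E] [Finite E]

theorem card_sup_le (A B : Subgroup E) : Nat.card (A ⊔ B : Subgroup E) ≤ Nat.card A * Nat.card B := by
  rw [← Nat.card_prod]
  refine Nat.card_le_card_of_surjective
    (fun x : A × B => (⟨(x.1 : E) * x.2, Subgroup.mul_mem_sup x.1.2 x.2.2⟩ : (A ⊔ B : Subgroup E))) ?_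
  rintro ⟨e, he⟩
  obtain ⟨a, ha, b, hb, rfl⟩ := Subgroup.mem_sup.mp he
  exact ⟨(⟨a, ha⟩, ⟨b, hb⟩), rfl⟩

theorem card_closure_le (hE2 : ∀ e : E, e ^ 2 = 1) (s : Finset E) :
    Nat.card (Subgroup.closure (s : Set E)) ≤ 2 ^ s.card := by
  classical
  induction s using Finset.induction_on with
  | empty => simp
  | insert a s ha ih =>
    rw [Finset.coe_insert, Set.insert_eq, Subgroup.closure_union, Finset.card_insert_of_notMem ha, pow_succ,
      mul_comm]
    refine (card_sup_le _ _).trans (Nat.mul_le_mul ?_ ih)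
    rw [← Subgroup.zpowers_eq_closure, Nat.card_zpowers]
    exact Nat.le_of_dvd (by norm_num) (orderOf_dvd_of_pow_eq_one (hE2 a))

/-- **Final step.** -/
theorem final {p k : ℕ} [hp : Fact p.Prime] (hk : 2 ^ k + 1 = p) (hk1 : 1 ≤ k) (hE2 : ∀ e : E, e ^ 2 = 1)
    (R : Subgroup (MulAut E)) (hR : IsPGroup p R) (y₁ y₂ : MulAut E) (hy₁ : y₁ ∈ R) (hy₂ : y₂ ∈ R)
    (hirr : ∀ D : Subgroup E, (∀ e ∈ D, y₁ e ∈ D) → (∀ e ∈ D, y₂ e ∈ D) → D = ⊥ ∨ D = ⊤)
    (m₁ m₂ : ℕ) (hm₁ : 1 ≤ m₁) (hm₂ : 1 ≤ m₂) (h₁ : y₁ ^ p ^ m₁ = 1) (h₂ : y₂ ^ p ^ m₂ = 1)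
    (M₁ M₂ : Subgroup E) (hM₁ : ∀ e, y₁ e * e⁻¹ ∈ M₁) (hM₂ : ∀ e, y₂ e * e⁻¹ ∈ M₂)
    (hc₁ : Nat.card M₁ = (p ^ m₁ - 1) ^ 2) (hc₂ : Nat.card M₂ = (p ^ m₂ - 1) ^ 2)
    (hf₁ : ∀ e ∈ M₁, (y₁ ^ p ^ (m₁ - 1)) e = e → e = 1)
    (hf₂ : ∀ e ∈ M₂, (y₂ ^ p ^ (m₂ - 1)) e = e → e = 1) :
    Commute (y₁ ^ p ^ (m₁ - 1)) (y₂ ^ p ^ (m₂ - 1)) := by
  classical
  have hp2 : p ≠ 2 := by
    intro h
    have h2 : 2 ^ 1 ≤ 2 ^ k := Nat.pow_le_pow_right (by norm_num) hk1
    omega
  have hp3 : 3 ≤ p := by
    have := hp.out.two_le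
    omega
  have hfin2 : Fact (Nat.Prime 2) := ⟨Nat.prime_two⟩
  have hE : IsPGroup 2 E := fun e => ⟨1, by simpa using hE2 e⟩
  obtain ⟨d, hd⟩ := (IsPGroup.iff_card).mp hE
  have hR' : ∀ r : MulAut E, r ∈ R → r ∈ R := fun _ h => h
  have hirr' : Irr R.subtype := by
    intro D hD
    exact hirr D (fun e he => hD ⟨y₁, hy₁⟩ e he) (fun e he => hD ⟨y₂, hy₂⟩ e he)
  -- short orbits
  have hshort : ∀ e : E, e ≠ 1 → (stab R.subtype e).index ≤ p →
      Commute (y₁ ^ p ^ (m₁ - 1)) (y₂ ^ p ^ (m₂ - 1)) := by
    intro e he hi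
    have h3 := comm_of_index_le R.subtype hR hirr' he hi ⟨_, R.pow_mem hy₁ (p ^ (m₁ - 1))⟩
      ⟨_, R.pow_mem hy₂ (p ^ (m₂ - 1))⟩
    rw [commute_iff_eq, ← commutatorElement_eq_one_iff_mul_comm]
    ext x
    exact h3 x
  have hpm : ∀ m, 1 ≤ m → 2 ≤ p ^ m - 1 := by
    intro m hm
    have : p ≤ p ^ m := Nat.le_self_pow (by omega) p
    omega
  -- the product is everything
  have htop : M₁ ⊔ M₂ = ⊤ := by
    have h3 := hirr (M₁ ⊔ M₂)
      (by
        intro e he
        have h4 : y₁ e = (y₁ e * e⁻¹) * e := by rw [inv_mul_cancel_right]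
        rw [h4]
        exact (M₁ ⊔ M₂).mul_mem (le_sup_left (a := M₁) (hM₁ e)) he)
      (by
        intro e he
        have h4 : y₂ e = (y₂ e * e⁻¹) * e := by rw [inv_mul_cancel_right]
        rw [h4]
        exact (M₁ ⊔ M₂).mul_mem (le_sup_right (a := M₁) (hM₂ e)) he)
    rcases h3 with h3 | h3
    · exfalso
      have h4 : M₁ = ⊥ := by
        rw [eq_bot_iff, ← h3]; exact le_sup_left
      rw [h4, Subgroup.card_bot] at hc₁
      have := hpm m₁ hm₁
      nlinarith
    · exact h3
  have hcard : Nat.card E ≤ (p ^ m₁ - 1) ^ 2 * (p ^ m₂ - 1) ^ 2 := by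
    have h3 := card_sup_le M₁ M₂
    rwa [htop, Subgroup.card_top, hc₁, hc₂] at h3
  -- the exponents
  have hexp : ∀ (m : ℕ) (M : Subgroup E), 1 ≤ m → Nat.card M = (p ^ m - 1) ^ 2 → m = 1 ∨ (p = 3 ∧ m = 2) := by
    intro m M hm hM
    have h3 : (p ^ m - 1) ∣ 2 ^ d := by
      rw [← hd]
      exact (Dvd.intro_left _ (by rw [hM, sq])).trans (Subgroup.card_subgroup_dvd_card M)
    obtain ⟨b, _, hb⟩ := (Nat.dvd_prime_pow Nat.prime_two).mp h3
    exact eq_one_or_nine hp.out hp2 hm hb
  have hd1 : 1 ≤ d := by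
    by_contra hcon
    have h0 : d = 0 := by omega
    rw [h0, pow_zero] at hd
    have h3 := Subgroup.card_le_card_group M₁
    rw [hd, hc₁] at h3
    have := hpm m₁ hm₁
    nlinarith
  have hcase1 : m₁ = 1 → m₂ = 1 → Commute (y₁ ^ p ^ (m₁ - 1)) (y₂ ^ p ^ (m₂ - 1)) := by
    intro e1 e2
    have hdle : d ≤ 4 * k := by
      rw [e1, e2, hd, pow_one, ← hk] at hcard
      simp only [Nat.add_sub_cancel] at hcard
      rw [← pow_mul, ← pow_add] at hcard
      have := (Nat.pow_le_pow_iff_right (by norm_num : 1 < 2)).mp hcard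
      omega
    have h3 := no_sq_dvd hp.out hk hk1 hd1 hdle
    obtain ⟨e, he, hi⟩ := exists_small_index R.subtype hR 1 (by rw [hd]; exact h3)
    rw [pow_one] at hi
    exact hshort e he hi
  by_cases hcase : m₁ = 1 ∧ m₂ = 1
  · exact hcase1 hcase.1 hcase.2
  have hp3' : p = 3 := by
    rcases hexp m₁ M₁ hm₁ hc₁ with h3 | h3
    · rcases hexp m₂ M₂ hm₂ hc₂ with h4 | h4
      · exact absurd ⟨h3, h4⟩ hcase
      · exact h4.1
    · exact h3.1
  subst hp3'
  have hm1' : m₁ = 1 ∨ m₁ = 2 := by
    rcases hexp m₁ M₁ hm₁ hc₁ with h3 | h3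
    · exact Or.inl h3
    · exact Or.inr h3.2
  have hm2' : m₂ = 1 ∨ m₂ = 2 := by
    rcases hexp m₂ M₂ hm₂ hc₂ with h3 | h3
    · exact Or.inl h3
    · exact Or.inr h3.2
  have hd12 : d ≤ 12 := by
    have h3 : Nat.card E ≤ 2 ^ 12 := by
      rcases hm1' with rfl | rfl <;> rcases hm2' with rfl | rfl <;> norm_num at hcard ⊢ <;> omega
    rw [hd] at h3
    exact (Nat.pow_le_pow_iff_right (by norm_num : 1 < 2)).mp h3
  by_cases h9 : 3 ^ 2 ∣ Nat.card E - 1
  swap
  · obtain ⟨e, he, hi⟩ := exists_small_index R.subtype hR 1 h9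
    rw [pow_one] at hi
    exact hshort e he hi
  have hd612 : d = 6 ∨ d = 12 := by
    rw [hd] at h9
    interval_cases d <;> first | (left; rfl) | (right; rfl) | (exfalso; revert h9; decide)
  rcases hd612 with h6 | h12
  · -- order 64
    have hcard64 : Nat.card E = 64 := by rw [hd, h6]; norm_num
    by_cases h3 : m₁ = 2
    · subst h3
      have hM : M₁ = ⊤ := by
        apply Subgroup.eq_top_of_card_eq
        rw [hc₁, hcard64]
        norm_num
      have h4 := central_of_nine hcard64 R hR hirr' y₁ hy₁ (by simpa using h₁)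
        (fun e he => hf₁ e (by rw [hM]; trivial) (by simpa using he)) (y₂ ^ 3 ^ (m₂ - 1)) (R.pow_mem hy₂ _)
      have h5 : y₁ ^ 3 ^ (2 - 1) = y₁ ^ 3 := by norm_num
      rw [h5]
      exact h4.symm
    · have h3' : m₂ = 2 := by
        rcases hm1' with h4 | h4
        · rcases hm2' with h5 | h5
          · exact absurd ⟨h4, h5⟩ hcase
          · exact h5
        · exact absurd h4 h3
      subst h3'
      have hM : M₂ = ⊤ := by
        apply Subgroup.eq_top_of_card_eq
        rw [hc₂, hcard64]
        norm_num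
      have h4 := central_of_nine hcard64 R hR hirr' y₂ hy₂ (by simpa using h₂)
        (fun e he => hf₂ e (by rw [hM]; trivial) (by simpa using he)) (y₁ ^ 3 ^ (m₁ - 1)) (R.pow_mem hy₁ _)
      have h5 : y₂ ^ 3 ^ (2 - 1) = y₂ ^ 3 := by norm_num
      rw [h5]
      exact h4
  · -- order 4096
    exfalso
    have h27 : ¬ 3 ^ (2 + 1) ∣ Nat.card E - 1 := by
      rw [hd, h12]; decide
    obtain ⟨e, he, hi⟩ := exists_small_index R.subtype hR 2 h27
    -- the orbit
    let _ : MulAction R E := MulAction.compHom E R.subtype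
    have hst : MulAction.stabilizer R e = stab R.subtype e := rfl
    have hfo : (orbit R e).Finite := Set.toFinite _
    let s : Finset E := hfo.toFinset
    have hs : s.card ≤ 9 := by
      have h3 : s.card = (stab R.subtype e).index := by
        rw [← hst, MulAction.index_stabilizer]
        exact (Set.ncard_eq_toFinset_card _ hfo).symm
      rw [h3]
      simpa using hi
    have hinv : ∀ r ∈ R, ∀ x ∈ Subgroup.closure (s : Set E), r x ∈ Subgroup.closure (s : Set E) := by
      intro r hr x hx
      induction hx using Subgroup.closure_induction with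
      | mem x hx =>
        apply Subgroup.subset_closure
        have hx' : x ∈ orbit R e := by simpa [s] using hx
        have : r x ∈ orbit R e := by
          obtain ⟨g, rfl⟩ := hx'
          exact ⟨⟨r, hr⟩ * g, rfl⟩
        simpa [s] using this
      | one => rw [map_one]; exact Subgroup.one_mem _
      | mul x y _ _ hx hy => rw [map_mul]; exact Subgroup.mul_mem _ hx hy
      | inv x _ hx => rw [map_inv]; exact Subgroup.inv_mem _ hx
    have hes : e ∈ Subgroup.closure (s : Set E) := by
      apply Subgroup.subset_closure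
      simp [s]
    rcases hirr _ (hinv y₁ hy₁) (hinv y₂ hy₂) with h3 | h3
    · rw [h3, Subgroup.mem_bot] at hes
      exact he hes
    · have h4 := card_closure_le hE2 s
      rw [h3, Subgroup.card_top, hd, h12] at h4
      have h5 : 2 ^ s.card ≤ 2 ^ 9 := Nat.pow_le_pow_right (by norm_num) hs
      have : (2 : ℕ) ^ 12 ≤ 2 ^ 9 := h4.trans h5
      norm_num at this

end final

end Cfsg.Agent.H450.Elem
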