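import Mathlib
import Cfsg.Prelude.Def_Local
import Cfsg.Agent.H450.FratMod
import Cfsg.Agent.H451.PLength
import Cfsg.Agent.S0633

/-!
# Hall–Higman: the exponent drops modulo `O_{p',p}` when Theorem B has no exception

`norm_formula`: `(u x)^m = n x^m` with `n ∈ P` of image `∑_{i<m} x^i u` in an elementary abelian quotient of `P`.
`sum_eq_zero`: if all `p`-elements have order dividing `p^N`, the `p`-elements act on the Frattini module with
`(x - 1)^(p^N - 1) = 0`.
`pLengthLE_of_good`: the bound `l_p ≤ e_p` under the hypothesis excluding the exceptional case of Theorem B.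
-/

set_option autoImplicit false

namespace Cfsg.Agent.H450.ExpDrop

open Cfsg Subgroup

universe u

/-- A `p`-element of the image lifts to a `p`-element. -/
theorem exists_lift {G H : Type*} [Group G] [Group H] [Finite G] (f : G →* H) {p : ℕ} [hp : Fact p.Prime]
    (hf : Function.Surjective f) {h : H} {k : ℕ} (hk : h ^ p ^ k = 1) :
    ∃ x : G, f x = h ∧ ∃ s : ℕ, x ^ p ^ s = 1 := by
  obtain ⟨g, rfl⟩ := hf h
  obtain ⟨s, r, hr, hn⟩ := Nat.exists_eq_pow_mul_and_not_dvd (orderOf_pos g).ne' p hp.out.ne_one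
  have hco : Nat.Coprime r (p ^ k) :=
    Nat.Coprime.pow_right k ((Nat.Prime.coprime_iff_not_dvd hp.out).2 hr).symm
  obtain ⟨u, hu⟩ := Nat.exists_mul_mod_eq_of_coprime (n := r) (k := p ^ k) 1 hco
    (pow_pos hp.out.pos k).ne'
  refine ⟨g ^ (r * u), ?_, s, ?_⟩
  · rw [map_pow]
    conv_rhs => rw [← pow_one (f g)]
    rw [pow_eq_pow_iff_modEq]
    exact Nat.ModEq.of_dvd (orderOf_dvd_of_pow_eq_one hk) hu.2
  · rw [← pow_mul, show r * u * p ^ s = orderOf g * u by rw [hn]; ring, pow_mul, pow_orderOf_eq_one,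
      one_pow]

/-- `(u x)^m = n x^m` with `n ∈ P` mapping to `∑_{i<m} x^i u`. -/
theorem norm_formula {G : Type*} [Group G] (P : Subgroup G) [hP : P.Normal] {V : Type*} [AddCommGroup V]
    {F : Type*} [Field F] [Module F V] (φ : G →* (V ≃ₗ[F] V)) (π : P →* Multiplicative V)
    (h : ∀ (g : G) (u : P) (h : g * u * g⁻¹ ∈ P), (π ⟨g * u * g⁻¹, h⟩).toAdd = φ g (π u).toAdd)
    (x : G) (u : P) (m : ℕ) :
    ∃ n : P, ((u : G) * x) ^ m = n * x ^ m ∧
      (π n).toAdd = (∑ i ∈ Finset.range m, (φ x : Module.End F V) ^ i) (π u).toAdd := by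
  induction m with
  | zero => exact ⟨1, by simp, by simp⟩
  | succ m ih =>
    obtain ⟨n, hn, hπ⟩ := ih
    have hmem : x ^ m * u * (x ^ m)⁻¹ ∈ P := hP.conj_mem u u.2 _
    refine ⟨n * ⟨x ^ m * u * (x ^ m)⁻¹, hmem⟩, ?_, ?_⟩
    · rw [pow_succ, hn, Subgroup.coe_mul, pow_succ]
      group
    · rw [map_mul, toAdd_mul, hπ, h, Finset.sum_range_succ, LinearMap.add_apply]
      congr 1
      rw [map_pow]
      have : ∀ k : ℕ, ∀ v : V, ((φ x) ^ k) v = ((φ x : Module.End F V) ^ k) v := by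
        intro k
        induction k with
        | zero => intro v; rfl
        | succ k ih =>
          intro v
          rw [pow_succ, pow_succ]
          exact ih (φ x v)
      exact this m _

/-- if `x` and all `u x` (`u ∈ P`) have order dividing `p^N`, then `(x - 1)^(p^N - 1) = 0` on `V`. -/
theorem sum_eq_zero {G : Type*} [Group G] (P : Subgroup G) [hP : P.Normal] {p : ℕ} [Fact p.Prime]
    {V : Type*} [AddCommGroup V] [Module (ZMod p) V]
    (φ : G →* (V ≃ₗ[ZMod p] V)) (π : P →* Multiplicative V) (hπ : Function.Surjective π)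
    (h : ∀ (g : G) (u : P) (h : g * u * g⁻¹ ∈ P), (π ⟨g * u * g⁻¹, h⟩).toAdd = φ g (π u).toAdd)
    (x : G) (N : ℕ) (hx : ∀ u : P, ((u : G) * x) ^ p ^ N = 1) :
    ((φ x : Module.End (ZMod p) V) - 1) ^ (p ^ N - 1) = 0 := by
  rw [← PLocal.HHBUnip.geom_eq (ZMod p) p]
  ext v
  obtain ⟨u, hu⟩ := hπ (Multiplicative.ofAdd v)
  obtain ⟨n, hn, hn2⟩ := norm_formula P φ π h x u (p ^ N)
  have hx1 : x ^ p ^ N = 1 := by simpa using hx 1
  rw [hx u, hx1, mul_one] at hn
  have hn1 : n = 1 := Subtype.ext hn.symm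
  rw [hn1, map_one, hu] at hn2
  exact hn2.symm

/-- `x` times an element of a normal `p`-subgroup is a `p`-element if `x` is. -/
theorem pElt_mul {G : Type*} [Group G] (P : Subgroup G) [P.Normal] {p : ℕ} [Fact p.Prime]
    (hP : IsPGroup p P) {x : G} {k : ℕ} (hx : x ^ p ^ k = 1) (u : P) :
    ∃ s : ℕ, ((u : G) * x) ^ p ^ s = 1 := by
  have hZ : IsPGroup p (zpowers x) := by
    rintro ⟨y, i, rfl⟩
    refine ⟨k, Subtype.ext ?_⟩
    show (x ^ i) ^ p ^ k = 1
    rw [← zpow_natCast, ← zpow_mul, mul_comm, zpow_mul, zpow_natCast, hx, one_zpow]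
  have h1 : IsPGroup p (P ⊔ zpowers x : Subgroup G) := hP.to_sup_of_normal_left hZ
  obtain ⟨s, hs⟩ := h1 ⟨(u : G) * x, Subgroup.mul_mem_sup u.2 (mem_zpowers x)⟩
  exact ⟨s, congrArg Subtype.val hs⟩

theorem pCore_range_eq_bot {G H : Type*} [Group G] [Group H] {p : ℕ} (φ : G →* H)
    (h : φ.ker = pCore p G) : pCore p φ.range = ⊥ := by
  have h0 : pCore p (G ⧸ φ.ker) = ⊥ := by
    have hN : IsPGroup p φ.ker := by rw [h]; exact Lib.Cores.pCore_isPGroup p
    have h1 := Lib.Cores.comap_mk_pCore p hN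
    rw [← h] at h1
    rw [← Subgroup.map_comap_eq_self_of_surjective (QuotientGroup.mk'_surjective φ.ker)
      (pCore p (G ⧸ φ.ker)), h1, Subgroup.map_eq_bot_iff, QuotientGroup.ker_mk']
  have e := QuotientGroup.quotientKerEquivRange φ
  rw [← Lib.Cores.map_equiv_pCore e p, h0, Subgroup.map_bot]

/-- **The exponent drops**: no exception in Theorem B. -/
theorem pow_mem_pCore {G : Type u} [Group G] [Finite G] {p : ℕ} [Fact p.Prime]
    (hsol : IsPSolvable p G) (hO : pPrimeCore p G = ⊥) (N : ℕ)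
    (hexp : ∀ x : G, ∀ k : ℕ, x ^ p ^ k = 1 → x ^ p ^ (N + 1) = 1)
    (hgood : ∀ (q n₀ m : ℕ), q.Prime → 1 ≤ n₀ → 1 ≤ m → p ^ n₀ - 1 = q ^ m →
      ∃ Q : Sylow q G, IsMulCommutative (Q : Subgroup G))
    (x : G) (k : ℕ) (hx : x ^ p ^ k = 1) : x ^ p ^ N ∈ pCore p G := by
  have hp : p.Prime := Fact.out
  have hPn : (pCore p G).Normal := Lib.Cores.pCore_normal p
  obtain ⟨V, _, _, _, φ, π, hπ, hφ, hker⟩ := FratMod.exists_module hsol hO
  have hPp : IsPGroup p (pCore p G) := Lib.Cores.pCore_isPGroup p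
  by_contra hcon
  have hxN := hexp x k hx
  have hord : orderOf (φ x) = p ^ (N + 1) := by
    refine orderOf_eq_prime_pow ?_ ?_
    · rw [← map_pow]
      intro h
      apply hcon
      rw [← hker]
      exact MonoidHom.mem_ker.mpr h
    · rw [← map_pow, hxN, map_one]
  have hs := sum_eq_zero (pCore p G) φ π hπ hφ x (N + 1) (fun u => by
    obtain ⟨s, hs⟩ := pElt_mul _ hPp hxN u
    exact hexp _ s hs)
  have hfr : Finite φ.range := Finite.of_surjective _ φ.rangeRestrict_surjective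
  rcases S0633.bound (H := φ.range) (Lib.PSolvable.IsPSolvable_of_surjective p hsol φ.rangeRestrict
      φ.rangeRestrict_surjective) (pCore_range_eq_bot φ hker) (φ x) ⟨x, rfl⟩ (N + 1) (by omega) hord _ hs
    with h | ⟨n₀, q, m, h1, h2, h3, h4, h5, h6, h7⟩
  · have : 0 < p ^ (N + 1) := pow_pos hp.pos _
    omega
  · obtain ⟨Q, hQ⟩ := hgood q n₀ m h3 h1 h4 h5
    have hq : Fact q.Prime := ⟨h3⟩
    refine h6 (Q.mapSurjective φ.rangeRestrict_surjective) ?_
    refine ⟨⟨?_⟩⟩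
    rintro ⟨a, ha⟩ ⟨b, hb⟩
    obtain ⟨a, ha, rfl⟩ := ha
    obtain ⟨b, hb, rfl⟩ := hb
    apply Subtype.ext
    show φ.rangeRestrict a * φ.rangeRestrict b = φ.rangeRestrict b * φ.rangeRestrict a
    rw [← map_mul, ← map_mul]
    congr 1
    exact congrArg Subtype.val (hQ.is_comm.comm ⟨a, ha⟩ ⟨b, hb⟩)

/-- the exponent condition passes to quotients -/
theorem exp_of_surjective {G H : Type*} [Group G] [Group H] [Finite G] {p : ℕ} [Fact p.Prime]
    (f : G →* H) (hf : Function.Surjective f) {N : ℕ}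
    (hexp : ∀ x : G, ∀ k : ℕ, x ^ p ^ k = 1 → x ^ p ^ N = 1) :
    ∀ x : H, ∀ k : ℕ, x ^ p ^ k = 1 → x ^ p ^ N = 1 := by
  intro x k hx
  obtain ⟨y, rfl, s, hs⟩ := exists_lift f hf hx
  rw [← map_pow, hexp y s hs, map_one]

/-- an abelian Sylow subgroup of a quotient -/
theorem comm_sylow_of_surjective {G H : Type*} [Group G] [Group H] [Finite G] {q : ℕ} [Fact q.Prime]
    (f : G →* H) (hf : Function.Surjective f)
    (h : ∃ Q : Sylow q G, IsMulCommutative (Q : Subgroup G)) :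
    ∃ Q : Sylow q H, IsMulCommutative (Q : Subgroup H) := by
  obtain ⟨Q, hQ⟩ := h
  refine ⟨Q.mapSurjective hf, ⟨⟨?_⟩⟩⟩
  rintro ⟨a, ha⟩ ⟨b, hb⟩
  obtain ⟨a, ha, rfl⟩ := ha
  obtain ⟨b, hb, rfl⟩ := hb
  apply Subtype.ext
  show f a * f b = f b * f a
  rw [← map_mul, ← map_mul]
  congr 1
  exact congrArg Subtype.val (hQ.is_comm.comm ⟨a, ha⟩ ⟨b, hb⟩)

/-- `p`-length does not change modulo `O_{p'}`. -/
theorem pLengthLE_of_quotient_pPrimeCore {G : Type u} [Group G] [Finite G] {p : ℕ} [Fact p.Prime]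
    {k : ℕ} (hn : (pPrimeCore p G).Normal := Lib.Cores.pPrimeCore_normal p)
    (h : PLengthLE p k (G ⧸ pPrimeCore p G)) : PLengthLE p k G := by
  have h0 : PLengthLE p 0 (pPrimeCore p G) :=
    H451.PLength.pLengthLE_zero_iff.mpr (Lib.Cores.pPrimeCore_coprime p)
  have := H451.PLength.pLengthLE_ext (pPrimeCore p G) h0 h
  rwa [Nat.zero_add] at this

/-- dividing by `O_p`. -/
theorem pLengthLE_succ_of_quotient_pCore {G : Type u} [Group G] [Finite G] {p : ℕ} [Fact p.Prime]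
    {k : ℕ} (hn : (pCore p G).Normal := Lib.Cores.pCore_normal p)
    (h : PLengthLE p k (G ⧸ pCore p G)) : PLengthLE p (k + 1) G := by
  have h0 : PLengthLE p 1 (pCore p G) :=
    H451.PLength.pLengthLE_one_of_isPGroup (Lib.Cores.pCore_isPGroup p)
  have := H451.PLength.pLengthLE_ext (pCore p G) h0 h
  rwa [Nat.add_comm] at this

theorem pLengthLE_zero_of_exp {G : Type u} [Group G] [Finite G] {p : ℕ} [hp : Fact p.Prime]
    (hexp : ∀ x : G, ∀ k : ℕ, x ^ p ^ k = 1 → x ^ p ^ 0 = 1) : PLengthLE p 0 G := by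
  rw [H451.PLength.pLengthLE_zero_iff]
  refine Nat.Coprime.symm ((Nat.Prime.coprime_iff_not_dvd hp.out).mpr ?_)
  intro hd
  obtain ⟨x, hx⟩ := exists_prime_orderOf_dvd_card' p hd
  have h1 := hexp x 1 (by rw [pow_one, ← hx, pow_orderOf_eq_one])
  rw [pow_zero, pow_one] at h1
  rw [h1, orderOf_one] at hx
  exact hp.out.one_lt.ne hx

/-- **`l_p ≤ e_p`** when Theorem B has no exception. -/
theorem pLengthLE_of_good {p : ℕ} [Fact p.Prime] (N : ℕ) :
    ∀ (G : Type u) [Group G] [Finite G] (_ : IsPSolvable p G)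
      (_ : ∀ x : G, ∀ k : ℕ, x ^ p ^ k = 1 → x ^ p ^ N = 1)
      (_ : ∀ (q n₀ m : ℕ), q.Prime → 1 ≤ n₀ → 1 ≤ m → p ^ n₀ - 1 = q ^ m →
        ∃ Q : Sylow q G, IsMulCommutative (Q : Subgroup G)), PLengthLE p N G := by
  induction N with
  | zero =>
    intro G _ _ _ hexp _
    exact pLengthLE_zero_of_exp hexp
  | succ N ih =>
    intro G _ _ hsol hexp hgood
    have hn1 : (pPrimeCore p G).Normal := Lib.Cores.pPrimeCore_normal p
    refine pLengthLE_of_quotient_pPrimeCore hn1 ?_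
    have main : ∀ (G₁ : Type u) [Group G₁] [Finite G₁] (f : G →* G₁) (hf : Function.Surjective f)
        (hO : pPrimeCore p G₁ = ⊥), PLengthLE p (N + 1) G₁ := by
      intro G₁ _ _ f hf hO
      have hsol1 : IsPSolvable p G₁ := Lib.PSolvable.IsPSolvable_of_surjective p hsol f hf
      have hexp1 := exp_of_surjective f hf hexp
      have hgood1 : ∀ (q n₀ m : ℕ), q.Prime → 1 ≤ n₀ → 1 ≤ m → p ^ n₀ - 1 = q ^ m →
          ∃ Q : Sylow q G₁, IsMulCommutative (Q : Subgroup G₁) := by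
        intro q n₀ m h1 h2 h3 h4
        have : Fact q.Prime := ⟨h1⟩
        exact comm_sylow_of_surjective f hf (hgood q n₀ m h1 h2 h3 h4)
      have hdrop := pow_mem_pCore hsol1 hO N hexp1 hgood1
      have hn2 : (pCore p G₁).Normal := Lib.Cores.pCore_normal p
      refine pLengthLE_succ_of_quotient_pCore hn2 ?_
      let f2 := QuotientGroup.mk' (pCore p G₁)
      have hf2 : Function.Surjective f2 := QuotientGroup.mk'_surjective _
      refine ih _ (Lib.PSolvable.IsPSolvable_of_surjective p hsol1 f2 hf2) ?_ ?_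
      · intro x k hx
        obtain ⟨y, rfl, s, hs⟩ := exists_lift f2 hf2 hx
        rw [← map_pow]
        exact (QuotientGroup.eq_one_iff _).mpr (hdrop y s hs)
      · intro q n₀ m h1 h2 h3 h4
        have : Fact q.Prime := ⟨h1⟩
        exact comm_sylow_of_surjective f2 hf2 (hgood1 q n₀ m h1 h2 h3 h4)
    exact main _ (QuotientGroup.mk' (pPrimeCore p G)) (QuotientGroup.mk'_surjective _)
      (Lib.Cores.pPrimeCore_quotient_pPrimeCore p)

/-- the exponent condition in terms of Sylow subgroups -/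
theorem exp_of_sylow {G : Type*} [Group G] {p : ℕ} [Fact p.Prime] {N : ℕ}
    (hexp : ∀ (P : Sylow p G), ∀ x ∈ (P : Subgroup G), x ^ p ^ N = 1) :
    ∀ x : G, ∀ k : ℕ, x ^ p ^ k = 1 → x ^ p ^ N = 1 := by
  intro x k hx
  have hZ : IsPGroup p (zpowers x) := by
    rintro ⟨y, i, rfl⟩
    refine ⟨k, Subtype.ext ?_⟩
    show (x ^ i) ^ p ^ k = 1
    rw [← zpow_natCast, ← zpow_mul, mul_comm, zpow_mul, zpow_natCast, hx, one_zpow]
  obtain ⟨P, hP⟩ := hZ.exists_le_sylow
  exact hexp P x (hP (mem_zpowers x))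

end Cfsg.Agent.H450.ExpDrop
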