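import Mathlib
import Cfsg.Agent.PLocal.HHBClifford
import Cfsg.Agent.PLocal.HHBLinear
import Cfsg.Agent.PLocal.HHBCoreAux

/-!
# Isotypic representations normalized by an operator: a stable irreducible subspace
-/

set_option autoImplicit false

namespace Cfsg.Agent.H450.Iso

open Cfsg.Agent.PLocal.HHBClifford Cfsg.Agent.PLocal.HHBLinear

variable {K : Type*} [Field K] {V : Type*} [AddCommGroup V] [Module K V] {Q : Type*} [Group Q]

set_option backward.isDefEq.respectTransparency false in
/-- If `V` is isotypic for `Q` and `X` normalizes the representation then there is an `X`-stable irreducible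
`Q`-submodule, and it has the same kernel as `V`. -/
theorem exists_stable_of_isotypic [IsAlgClosed K] [FiniteDimensional K V] (ρ : Q →* Module.End K V)
    (X : (Module.End K V)ˣ) (σ : MulAut Q) (hX : ∀ h, (X : Module.End K V) * ρ h = ρ (σ h) * X)
    (U₀ : Submodule (alg ρ) V) (hU₀ : IsSimpleModule (alg ρ) U₀)
    (htop : isotypicComponent (alg ρ) V U₀ = ⊤) :
    ∃ W : Submodule K V, W ≠ ⊥ ∧ (∀ h, ∀ u ∈ W, ρ h u ∈ W) ∧
      (∀ S ≤ W, (∀ h, ∀ u ∈ S, ρ h u ∈ S) → S = ⊥ ∨ S = W) ∧
      (∀ u ∈ W, (X : Module.End K V) u ∈ W) ∧ (∀ g, (∀ u ∈ W, ρ g u = u) → ρ g = 1) := by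
  have hN := nrm_alg hX
  have hθ : Nonempty (tw hN U₀ ≃ₗ[alg ρ] U₀) := by
    have h1 : IsIsotypicOfType (alg ρ) (isotypicComponent (alg ρ) V U₀) U₀ :=
      IsIsotypicOfType.isotypicComponent (alg ρ) V U₀
    have h2 : tw hN U₀ ≤ isotypicComponent (alg ρ) V U₀ := by
      rw [htop]; exact le_top
    have h3 := isSimple_tw hN hU₀
    exact isIsotypicOfType_submodule_iff.1 h1 _ h2
  obtain ⟨θ⟩ := hθ
  obtain ⟨f, hfinj, hsimple, hfX⟩ := exists_stable hN hU₀ θ
  let e : U₀ ≃ₗ[alg ρ] LinearMap.range f := LinearEquiv.ofInjective f hfinj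
  have hatom : IsAtom (LinearMap.range f) := isSimpleModule_iff_isAtom.1 hsimple
  refine ⟨(LinearMap.range f).restrictScalars K, ?_, ?_, ?_, ?_, ?_⟩
  · intro h0
    apply hatom.1
    rw [Submodule.eq_bot_iff]
    intro v hv
    have : v ∈ (LinearMap.range f).restrictScalars K := hv
    rw [h0] at this
    exact this
  · exact fun h u hu => rho_apply_mem _ h hu
  · intro S hSU hS
    rcases (hatom.le_iff).1 (show toSub ρ S hS ≤ LinearMap.range f from hSU) with h | h
    · left
      rw [Submodule.eq_bot_iff]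
      intro v hv
      have : v ∈ toSub ρ S hS := hv
      rw [h] at this
      exact this
    · right
      ext v
      have h2 : v ∈ toSub ρ S hS ↔ v ∈ LinearMap.range f := by rw [h]
      exact h2
  · intro u hu
    exact hfX u hu
  · intro g hg
    ext v
    have hv : v ∈ isotypicComponent (alg ρ) V U₀ := by rw [htop]; trivial
    rw [isotypicComponent, sSup_eq_iSup'] at hv
    refine Submodule.iSup_induction (R := alg ρ) _ (motive := fun v => ρ g v = (1 : Module.End K V) v) hv ?_ ?_ ?_
    · rintro ⟨m, ⟨e'⟩⟩ x hx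
      let E : m ≃ₗ[alg ρ] LinearMap.range f := e'.trans e
      have h1 : ρ g (E ⟨x, hx⟩ : V) = (E ⟨x, hx⟩ : V) := hg _ (E ⟨x, hx⟩).2
      have h2 := E.map_smul (⟨ρ g, rho_mem_alg ρ g⟩ : alg ρ) ⟨x, hx⟩
      have h3 := h2.trans (show _ = E ⟨x, hx⟩ from Subtype.ext h1)
      have h4 := E.injective h3
      exact congrArg Subtype.val h4
    · show ρ g 0 = (1 : Module.End K V) 0
      rw [map_zero, map_zero]
    · intro x y hx hy
      show ρ g (x + y) = (1 : Module.End K V) (x + y)
      rw [map_add, map_add]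
      exact congrArg₂ (· + ·) hx hy

/-- restriction of a representation -/
theorem exists_restrict (ρ : Q →* Module.End K V) (W : Submodule K V) (hW : ∀ h, ∀ u ∈ W, ρ h u ∈ W) :
    ∃ ρW : Q →* Module.End K W, ∀ g (w : W), ((ρW g w : W) : V) = ρ g w := by
  refine ⟨{ toFun := fun g => (ρ g).restrict (hW g)
            map_one' := by ext x; simp
            map_mul' := by intro g h; ext x; simp }, fun g w => rfl⟩

theorem isIrr_restrict (ρ : Q →* Module.End K V) (W : Submodule K V)
    (hirr : ∀ S ≤ W, (∀ h, ∀ u ∈ S, ρ h u ∈ S) → S = ⊥ ∨ S = W) (ρW : Q →* Module.End K W)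
    (hρW : ∀ g (w : W), ((ρW g w : W) : V) = ρ g w) : IsIrr ρW := by
  intro S hS
  have hinj := Submodule.map_injective_of_injective (f := W.subtype) W.injective_subtype
  rcases hirr (S.map W.subtype) (Submodule.map_subtype_le _ _) (by
    rintro h _ ⟨u, hu, rfl⟩
    exact ⟨ρW h u, hS h u hu, hρW h u⟩) with h | h
  · left
    exact hinj (h.trans (Submodule.map_bot _).symm)
  · right
    exact hinj (h.trans (by rw [Submodule.map_top, Submodule.range_subtype]))

end Cfsg.Agent.H450.Iso
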