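import Mathlib
import Cfsg.Agent.H450.Brk
import Cfsg.Agent.H450.Iso
import Cfsg.Agent.H450.Elem
import Cfsg.Agent.PLocal.HHBFinrankSq
import Cfsg.Agent.PLocal.HHBJordan
import Cfsg.Agent.PLocal.HHBReduceCore

/-!
# A single automorphism of a `2`-group of class two with `(X - 1)^(p^m - 1) = 0`
-/

set_option autoImplicit false

namespace Cfsg.Agent.H450.Single

open Subgroup
open Cfsg.Agent.PLocal.HHBClifford Cfsg.Agent.PLocal.HHBLinear Cfsg.Agent.PLocal.HHBJordan
  Cfsg.Agent.PLocal.HHBUnip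
open Cfsg.Agent.H450.Brk
open scoped commutatorElement

theorem rho_pow {K : Type*} [Field K] {U : Type*} [AddCommGroup U] [Module K U] {Q : Type*} [Group Q]
    {ρ : Q →* Module.End K U} {σ : MulAut Q} {X : Module.End K U} (hX : ∀ g, X * ρ g = ρ (σ g) * X) (i : ℕ)
    (g : Q) : X ^ i * ρ g = ρ ((σ ^ i) g) * X ^ i := by
  induction i generalizing g with
  | zero => simp
  | succ i ih => rw [pow_succ', mul_assoc, ih, ← mul_assoc, hX, mul_assoc, pow_succ', MulAut.mul_apply]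

theorem not_dvd_card {p : ℕ} [hp : Fact p.Prime] (hp2 : p ≠ 2) {Q : Type*} [Group Q] [Finite Q]
    (hQ : IsPGroup 2 Q) : ¬ p ∣ Nat.card Q := by
  have : Fact (Nat.Prime 2) := ⟨Nat.prime_two⟩
  obtain ⟨a, ha⟩ := IsPGroup.iff_card.1 hQ
  rw [ha]
  intro h
  exact hp2 ((Nat.prime_dvd_prime_iff_eq hp.out Nat.prime_two).1 (hp.out.dvd_of_dvd_pow h))

/-- The structure of `[Q, z]`. -/
theorem relIndex_eq {K : Type*} [Field K] [IsAlgClosed K] {p : ℕ} [hp : Fact p.Prime] [CharP K p]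
    (hp2 : p ≠ 2) {U : Type*} [AddCommGroup U] [Module K U] [FiniteDimensional K U] [Nontrivial U]
    {Q : Type*} [Group Q] [Finite Q] (hQ : IsPGroup 2 Q) (hcl : ∀ a b c : Q, ⁅a, b⁆ * c = c * ⁅a, b⁆)
    (ρ : Q →* Module.End K U) (hρ : Function.Injective ρ) (hirr : IsIrr ρ)
    (σ : MulAut Q) (X : (Module.End K U)ˣ) (hX : ∀ g, (X : Module.End K U) * ρ g = ρ (σ g) * X) (m : ℕ)
    (hm : 1 ≤ m) (hσ : σ ^ p ^ m = 1) (hZ : ∀ c ∈ center Q, (σ ^ p ^ (m - 1)) c = c)
    (hXm : X ^ p ^ m = 1) (hr : ((X : Module.End K U) - 1) ^ (p ^ m - 1) = 0) (hz : σ ^ p ^ (m - 1) ≠ 1) :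
    (center Q).relIndex (brk (σ ^ p ^ (m - 1))) = (p ^ m - 1) ^ 2 ∧
    ∃ W : Submodule K U, W ≠ ⊥ ∧ (∀ h ∈ brk (σ ^ p ^ (m - 1)), ∀ u ∈ W, ρ h u ∈ W) ∧
      (∀ S ≤ W, (∀ h ∈ brk (σ ^ p ^ (m - 1)), ∀ u ∈ S, ρ h u ∈ S) → S = ⊥ ∨ S = W) ∧
      (∀ u ∈ W, (X : Module.End K U) u ∈ W) ∧
      ∃ u ∈ W, (((X : Module.End K U) - 1) ^ (p ^ m - 2)) u ≠ 0 := by
  classical
  have hfp2 : Fact (Nat.Prime 2) := ⟨Nat.prime_two⟩
  set z := σ ^ p ^ (m - 1) with hzdef
  have hzp : z ^ p = 1 := by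
    rw [hzdef, ← pow_mul, ← pow_succ, Nat.sub_add_cancel hm, hσ]
  have hQp := not_dvd_card (p := p) hp2 hQ
  have hzσ : Commute z σ := by
    rw [hzdef]
    exact (Commute.refl σ).pow_left _
  set M := brk z with hM
  have hMσ : ∀ g ∈ M, σ g ∈ M := fun g hg => brk_invariant hzσ hg
  obtain ⟨τ, hτ⟩ := PLocal.HHBReduceCore.exists_restrict σ M hMσ
  have hMne : ∃ g ∈ M, z g ≠ g := by
    by_contra hcon
    push Not at hcon
    apply hz
    have h1 := brk_gen hQp z hzp
    have h2 : closure {w | ∃ a ∈ brk z, w = z a * a⁻¹} = ⊥ := by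
      rw [closure_eq_bot_iff]
      rintro _ ⟨a, ha, rfl⟩
      rw [hcon a ha, mul_inv_cancel]
      rfl
    rw [h2] at h1
    ext g
    have h3 : z g * g⁻¹ ∈ brk z := mem_brk z g
    rw [← h1, Subgroup.mem_bot, mul_inv_eq_one] at h3
    exact h3
  let ρM : M →* Module.End K U := ρ.comp M.subtype
  have hXM : ∀ h : M, (X : Module.End K U) * ρM h = ρM (τ h) * X := by
    intro h
    have h1 := hτ 1 h
    rw [pow_one, pow_one] at h1
    change (X : Module.End K U) * ρ (h : Q) = ρ ((τ h : M) : Q) * X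
    rw [h1]
    exact hX h
  have hMQ : IsPGroup 2 M := hQ.to_subgroup M
  have hcardM : (Nat.card M : K) ≠ 0 := by
    intro h0
    rw [CharP.cast_eq_zero_iff K p] at h0
    exact not_dvd_card (p := p) hp2 hMQ h0
  obtain ⟨U₀, hU₀, g₀, w₀, hw₀, hgw₀⟩ := exists_simple hcardM ρM (by
    obtain ⟨g, hg, hgz⟩ := hMne
    refine ⟨⟨g, hg⟩, fun h => hgz ?_⟩
    have h1 : ρ g = 1 := h
    rw [hρ (h1.trans (map_one ρ).symm), map_one])
  -- isotypic
  have htop : isotypicComponent (alg ρM) U U₀ = ⊤ := by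
    have hinv : ∀ g : Q, ∀ u ∈ (isotypicComponent (alg ρM) U U₀).restrictScalars K,
        ρ g u ∈ (isotypicComponent (alg ρM) U U₀).restrictScalars K := by
      intro g u hu
      obtain ⟨a, ha, n, hn, rfl⟩ := Brk.exists_decomp hQp z hzp g
      rw [map_mul]
      have h1 : ρ n u ∈ isotypicComponent (alg ρM) U U₀ := by
        let F : U →ₗ[alg ρM] U :=
          { toFun := ρ n
            map_add' := map_add _
            map_smul' := by
              rintro ⟨a, ha⟩ v
              show ρ n (a v) = a (ρ n v)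
              rw [← Module.End.mul_apply, ← Module.End.mul_apply]
              congr 1
              induction ha using Algebra.adjoin_induction with
              | mem a ha =>
                obtain ⟨⟨b, hb⟩, rfl⟩ := ha
                change ρ n * ρ b = ρ b * ρ n
                rw [← map_mul, ← map_mul, Brk.comm hcl hZ hb hn]
              | algebraMap c => exact (Algebra.commutes c _).symm
              | add a b _ _ iha ihb => rw [mul_add, add_mul, iha, ihb]
              | mul a b _ _ iha ihb => rw [← mul_assoc, iha, mul_assoc, ihb, mul_assoc] }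
        exact LinearMap.le_comap_isotypicComponent (R := alg ρM) U₀ F hu
      exact rho_apply_mem (ρ := ρM) _ ⟨a, ha⟩ h1
    rcases hirr _ hinv with h | h
    · exfalso
      have := bot_lt_isotypicComponent (R := alg ρM) (M := U) U₀
      apply this.ne'
      rw [Submodule.eq_bot_iff]
      intro v hv
      have h2 : v ∈ (isotypicComponent (alg ρM) U U₀).restrictScalars K := hv
      rw [h] at h2
      exact h2
    · ext v
      have h2 : v ∈ (isotypicComponent (alg ρM) U U₀).restrictScalars K := by rw [h]; trivial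
      exact ⟨fun _ => trivial, fun _ => h2⟩
  obtain ⟨W, hWbot, hWρ, hWirr, hWX, hWfaith⟩ := Iso.exists_stable_of_isotypic ρM X τ hXM U₀ hU₀ htop
  obtain ⟨ρW, hρW⟩ := Iso.exists_restrict ρM W hWρ
  have hirrW := Iso.isIrr_restrict ρM W hWirr ρW hρW
  have hWn : Nontrivial W := Submodule.nontrivial_iff_ne_bot.2 hWbot
  have hρWinj : Function.Injective ρW := by
    rw [← MonoidHom.ker_eq_bot_iff, eq_bot_iff]
    intro g hg
    rw [MonoidHom.mem_ker] at hg
    rw [Subgroup.mem_bot]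
    have h1 : ρM g = 1 := by
      apply hWfaith
      intro u hu
      have h2 := congrArg Subtype.val (LinearMap.congr_fun hg ⟨u, hu⟩)
      rw [hρW] at h2
      exact h2
    have h2 : ρ (g : Q) = 1 := h1
    exact Subtype.ext (hρ (h2.trans (map_one ρ).symm))
  let Y₀ : Module.End K W := (X : Module.End K U).restrict hWX
  have hY₀ : ∀ u : W, ((Y₀ u : W) : U) = (X : Module.End K U) u := fun u => rfl
  have hXm' : (X : Module.End K U) ^ p ^ m = 1 := by
    rw [← Units.val_pow_eq_pow_val, hXm, Units.val_one]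
  have hY₀pow : Y₀ ^ (p ^ m) = 1 := by
    ext u
    rw [PLocal.HHBCoreAux.restrict_pow_apply W X Y₀ hY₀, hXm']
    rfl
  have hpm : p ^ m ≠ 0 := (pow_pos hp.out.pos m).ne'
  obtain ⟨Y, hYval⟩ : ∃ Y : (Module.End K W)ˣ, (Y : Module.End K W) = Y₀ :=
    IsUnit.of_pow_eq_one hY₀pow hpm
  have hYρ : ∀ h, (Y : Module.End K W) * ρW h = ρW (τ h) * Y := by
    intro h
    rw [hYval]
    ext u
    change (X : Module.End K U) ((ρW h u : W) : U) = ((ρW (τ h) (Y₀ u) : W) : U)
    rw [hρW, hρW, hY₀]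
    exact LinearMap.congr_fun (hXM h) (u : U)
  have hτm : τ ^ p ^ m = 1 := by
    ext g
    rw [hτ, hσ]
    rfl
  have hgen : closure {w : M | ∃ h : M, w = (τ ^ (p ^ (m - 1))) h * h⁻¹} = ⊤ := by
    apply Subgroup.map_injective M.subtype_injective
    rw [MonoidHom.map_closure, ← MonoidHom.range_eq_map, Subgroup.range_subtype]
    refine Eq.trans ?_ (brk_gen hQp z hzp)
    congr 1
    ext w
    constructor
    · rintro ⟨_, ⟨h, rfl⟩, rfl⟩
      refine ⟨h, h.2, ?_⟩
      rw [← hτ]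
      rfl
    · rintro ⟨u, hu, rfl⟩
      refine ⟨_, ⟨⟨u, hu⟩, rfl⟩, ?_⟩
      change (((τ ^ (p ^ (m - 1))) ⟨u, hu⟩ : M) : Q) * u⁻¹ = _
      rw [hτ]
  have hclM : ∀ a b c : M, ⁅a, b⁆ * c = c * ⁅a, b⁆ := by
    intro a b c
    apply Subtype.ext
    exact hcl a b c
  obtain ⟨κ, hκ⟩ := exists_commScalar hirrW hclM
  let _ : Fintype M := Fintype.ofFinite M
  have hcard' : (Fintype.card M : K) ≠ 0 := by rwa [← Nat.card_eq_fintype_card]
  have hD : Decomp Y (p ^ m) := by
    intro T hT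
    exact hκ.exists_trace hirrW hcard' hYρ hm hτm hgen hT
  have hY1 : (Y : Module.End K W) - 1 ≠ 0 := by
    intro h0
    obtain ⟨g, hg, hgz⟩ := hMne
    apply hgz
    have h1 : ∀ h, τ h = h := by
      intro h
      apply hρWinj
      have h2 := hYρ h
      rw [sub_eq_zero.1 h0, one_mul, mul_one] at h2
      exact h2.symm
    have h2 : τ = 1 := MulEquiv.ext h1
    have h3 := hτ (p ^ (m - 1)) ⟨g, hg⟩
    rw [h2, one_pow] at h3
    exact h3.symm
  have h0 : ((Y : Module.End K W) - 1) ^ (p ^ m - 1) = 0 := by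
    rw [hYval]
    ext u
    rw [PLocal.HHBCoreAux.restrict_pow_apply W ((X : Module.End K U) - 1) (Y₀ - 1) (fun u => rfl), hr]
    rfl
  have hfr := finrank_eq_of_decomp p m hm hD hY1 h0
  have hne2 := pow_ne_zero_of_decomp p m hm hD hY1
  have hsq := PLocal.HHBFinrankSq.finrank_sq hcard' hκ hirrW
  have hrad : hκ.rad = (center Q).subgroupOf M := by
    ext u
    rw [hκ.mem_rad, Subgroup.mem_subgroupOf]
    constructor
    · intro h
      apply Brk.mem_center_of_mem hQp hzp hcl hZ u.2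
      intro b hb
      have h1 := hκ.comm ⟨b, hb⟩ u
      rw [h, one_smul, ← map_mul, ← map_mul] at h1
      exact congrArg Subtype.val (hρWinj h1)
    · intro h b
      have h1 := hκ.comm b u
      have h2 : b * u = u * b := Subtype.ext (mem_center_iff.mp h b)
      rw [← map_mul, ← map_mul, h2] at h1
      have h3 : κ b u • ρW (u * b) = (1 : K) • ρW (u * b) := by rw [one_smul]; exact h1.symm
      exact scal_inj ρW (u * b) h3
  refine ⟨?_, W, hWbot, fun h hh u hu => hWρ ⟨h, hh⟩ u hu, ?_, hWX, ?_⟩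
  · rw [Subgroup.relIndex, ← hrad, ← hsq, hfr]
  · intro S hS hSρ
    exact hWirr S hS (fun h u hu => hSρ h h.2 u hu)
  · by_contra hcon
    push Not at hcon
    apply hne2
    rw [hYval]
    ext u
    rw [PLocal.HHBCoreAux.restrict_pow_apply W ((X : Module.End K U) - 1) (Y₀ - 1) (fun u => rfl)]
    exact hcon u u.2

/-- the case `p ^ m = 9`: `σ` centralizes `C_Q(σ³)`. -/
theorem fixed_of_nine {K : Type*} [Field K] [IsAlgClosed K] [CharP K 3]
    {U : Type*} [AddCommGroup U] [Module K U]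
    {Q : Type*} [Group Q] [Finite Q] (hQp : ¬ 3 ∣ Nat.card Q) (hcl : ∀ a b c : Q, ⁅a, b⁆ * c = c * ⁅a, b⁆)
    (ρ : Q →* Module.End K U) (hρ : Function.Injective ρ) (hirr : IsIrr ρ)
    (σ : MulAut Q) (X : (Module.End K U)ˣ) (hX : ∀ g, (X : Module.End K U) * ρ g = ρ (σ g) * X)
    (hσ : σ ^ 9 = 1) (hZ : ∀ c ∈ center Q, (σ ^ 3) c = c)
    (hr : ((X : Module.End K U) - 1) ^ 8 = 0)
    (W : Submodule K U) (hW : W ≠ ⊥) (hWρ : ∀ h ∈ brk (σ ^ 3), ∀ u ∈ W, ρ h u ∈ W)
    (hWirr : ∀ S ≤ W, (∀ h ∈ brk (σ ^ 3), ∀ u ∈ S, ρ h u ∈ S) → S = ⊥ ∨ S = W)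
    (hWX : ∀ u ∈ W, (X : Module.End K U) u ∈ W)
    (hu : ∃ u ∈ W, (((X : Module.End K U) - 1) ^ 7 : Module.End K U) u ≠ 0) :
    ∀ n ∈ fx (σ ^ 3), σ n = n := by
  have hf3 : Fact (Nat.Prime 3) := ⟨Nat.prime_three⟩
  set z := σ ^ 3 with hzdef
  have hzp : z ^ 3 = 1 := by rw [hzdef, ← pow_mul, hσ]
  have hzσ : Commute z σ := by
    rw [hzdef]
    exact (Commute.refl σ).pow_left _
  set ν : Module.End K U := (X : Module.End K U) - 1 with hν
  have hXν : (X : Module.End K U) = ν + 1 := by rw [hν]; abel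
  have h3K : (3 : Module.End K U) = 0 := by
    have h1 : (3 : K) = 0 := by
      have := CharP.cast_eq_zero K 3
      exact_mod_cast this
    have h2 : algebraMap K (Module.End K U) 3 = (3 : Module.End K U) := map_ofNat _ 3
    rw [← h2, h1, map_zero]
  have hX3 : (1 : Module.End K U) + (X : Module.End K U) ^ 3 + (X : Module.End K U) ^ 6 = ν ^ 6 := by
    have h1 : (1 : Module.End K U) + (X : Module.End K U) ^ 3 + (X : Module.End K U) ^ 6 - ν ^ 6 =
        3 * (1 + 3 * ν + 6 * ν ^ 2 + 7 * ν ^ 3 + 5 * ν ^ 4 + 2 * ν ^ 5) := by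
      rw [hXν]; noncomm_ring
    rw [h3K, zero_mul, sub_eq_zero] at h1
    exact h1
  have hν8 : ν ^ 8 = 0 := hr
  have hsum : ∑ i ∈ Finset.range 9, (X : Module.End K U) ^ i = 0 := by
    have h1 := geom_eq K 3 (X : Module.End K U) 2
    have h2 : (3 : ℕ) ^ 2 = 9 := by norm_num
    rw [h2] at h1
    rw [h1]
    exact hr
  -- the operator identity
  have hop : ∀ n ∈ fx z, (1 + ρ (n⁻¹ * σ n) * (X : Module.End K U) +
      ρ (n⁻¹ * σ (σ n)) * (X : Module.End K U) ^ 2) * ν ^ 6 = 0 := by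
    intro n hn
    have hz3 : σ (σ (σ n)) = n := by
      have : z n = n := hn
      rw [hzdef] at this
      simpa [pow_succ] using this
    have h1 : ρ n⁻¹ * (∑ i ∈ Finset.range 9, (X : Module.End K U) ^ i) * ρ n = 0 := by
      rw [hsum, mul_zero, zero_mul]
    have h2 : ∀ i, ρ n⁻¹ * (X : Module.End K U) ^ i * ρ n =
        ρ (n⁻¹ * (σ ^ i) n) * (X : Module.End K U) ^ i := by
      intro i
      rw [mul_assoc, rho_pow hX, ← mul_assoc, ← map_mul]
    rw [Finset.mul_sum, Finset.sum_mul, Finset.sum_congr rfl (fun i _ => h2 i)] at h1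
    simp only [Finset.sum_range_succ, Finset.sum_range_zero] at h1
    have e0 : (σ ^ 0) n = n := by simp
    have e1 : (σ ^ 1) n = σ n := by simp
    have e2 : (σ ^ 2) n = σ (σ n) := by simp [pow_succ]
    have e3 : (σ ^ 3) n = n := by simp [pow_succ, hz3]
    have e4 : (σ ^ 4) n = σ n := by simp [pow_succ, hz3]
    have e5 : (σ ^ 5) n = σ (σ n) := by simp [pow_succ, hz3]
    have e6 : (σ ^ 6) n = n := by simp [pow_succ, hz3]
    have e7 : (σ ^ 7) n = σ n := by simp [pow_succ, hz3]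
    have e8 : (σ ^ 8) n = σ (σ n) := by simp [pow_succ, hz3]
    rw [e0, e1, e2, e3, e4, e5, e6, e7, e8, inv_mul_cancel, map_one] at h1
    rw [← hX3]
    refine Eq.trans ?_ h1
    noncomm_ring
  -- step one: `A₁ = 1` on `W`
  obtain ⟨u, huW, hu7⟩ := hu
  have hWν : ∀ w ∈ W, ν w ∈ W := by
    intro w hw
    rw [hν]
    exact W.sub_mem (hWX w hw) hw
  have hWνk : ∀ k : ℕ, ∀ w ∈ W, (ν ^ k) w ∈ W := by
    intro k
    induction k with
    | zero => intro w hw; simpa using hw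
    | succ k ih =>
      intro w hw
      rw [pow_succ, Module.End.mul_apply]
      exact ih _ (hWν w hw)
  set w₀ := (ν ^ 6) u with hw₀
  set w₁ := (ν ^ 7) u with hw₁
  have hw₀W : w₀ ∈ W := hWνk 6 u huW
  have hw₁W : w₁ ∈ W := hWνk 7 u huW
  have hνw₀ : ν w₀ = w₁ := by
    rw [hw₀, hw₁, ← Module.End.mul_apply, ← pow_succ']
  have hνw₁ : ν w₁ = 0 := by
    rw [hw₁, ← Module.End.mul_apply, ← pow_succ', hν8, LinearMap.zero_apply]
  have hXw₁ : (X : Module.End K U) w₁ = w₁ := by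
    rw [hXν, LinearMap.add_apply, hνw₁, zero_add, Module.End.one_apply]
  have hXw₀ : (X : Module.End K U) w₀ = w₁ + w₀ := by
    rw [hXν, LinearMap.add_apply, hνw₀, Module.End.one_apply]
  -- operators commuting with `M`
  have hkill : ∀ B : Module.End K U, (∀ a ∈ brk z, B * ρ a = ρ a * B) → B w₁ = 0 → ∀ w ∈ W, B w = 0 := by
    intro B hB hB1
    have h1 : W ⊓ LinearMap.ker B = W := by
      rcases hWirr (W ⊓ LinearMap.ker B) inf_le_left (by
        rintro h hh v ⟨hv1, hv2⟩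
        refine ⟨hWρ h hh v hv1, ?_⟩
        show B (ρ h v) = 0
        rw [← Module.End.mul_apply, hB h hh, Module.End.mul_apply, show B v = 0 from hv2, map_zero]) with h | h
      · exfalso
        have : w₁ ∈ W ⊓ LinearMap.ker B := ⟨hw₁W, hB1⟩
        rw [h, Submodule.mem_bot] at this
        exact hu7 this
      · exact h
    intro w hw
    rw [← h1] at hw
    exact hw.2
  have hcommM : ∀ n ∈ fx z, ∀ a ∈ brk z, ρ n * ρ a = ρ a * ρ n := by
    intro n hn a ha
    rw [← map_mul, ← map_mul, Brk.comm hcl hZ ha hn]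
  have hN1 : ∀ n ∈ fx z, n⁻¹ * σ n ∈ fx z := fun n hn => mul_mem (inv_mem hn) (fx_invariant hzσ hn)
  have hN2 : ∀ n ∈ fx z, n⁻¹ * σ (σ n) ∈ fx z := fun n hn =>
    mul_mem (inv_mem hn) (fx_invariant hzσ (fx_invariant hzσ hn))
  have hA : ∀ n ∈ fx z, ∀ w ∈ W, ρ (n⁻¹ * σ n) w = w := by
    intro n hn
    have h1 := hop n hn
    set A₁ := ρ (n⁻¹ * σ n) with hA₁
    set A₂ := ρ (n⁻¹ * σ (σ n)) with hA₂
    have hA₁c : ∀ a ∈ brk z, A₁ * ρ a = ρ a * A₁ := hcommM _ (hN1 n hn)
    have hA₂c : ∀ a ∈ brk z, A₂ * ρ a = ρ a * A₂ := hcommM _ (hN2 n hn)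
    have h2 : w₁ + A₁ w₁ + A₂ w₁ = 0 := by
      have h3 : ((1 + A₁ * (X : Module.End K U) + A₂ * (X : Module.End K U) ^ 2) * ν ^ 6 : Module.End K U)
          (ν u) = 0 := by
        rw [h1]; rfl
      rw [Module.End.mul_apply, ← Module.End.mul_apply (ν ^ 6), ← pow_succ, ← hw₁] at h3
      simpa [pow_two, hXw₁] using h3
    have h3 : w₀ + A₁ (w₁ + w₀) + A₂ (w₁ + (w₁ + w₀)) = 0 := by
      have h4 : ((1 + A₁ * (X : Module.End K U) + A₂ * (X : Module.End K U) ^ 2) * ν ^ 6 : Module.End K U)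
          u = 0 := by
        rw [h1]; rfl
      rw [Module.End.mul_apply, ← hw₀] at h4
      simp only [LinearMap.add_apply, Module.End.mul_apply, Module.End.one_apply, pow_two, hXw₁, hXw₀,
        map_add] at h4 ⊢
      exact h4
    have hB : ∀ w ∈ W, (1 + A₁ + A₂ : Module.End K U) w = 0 := by
      apply hkill
      · intro a ha
        rw [add_mul, add_mul, mul_add, mul_add, hA₁c a ha, hA₂c a ha, one_mul, mul_one]
      · simpa using h2
    have hC : ∀ w ∈ W, (A₁ + A₂ + A₂ : Module.End K U) w = 0 := by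
      apply hkill
      · intro a ha
        rw [add_mul, add_mul, mul_add, mul_add, hA₁c a ha, hA₂c a ha]
      · have h4 := hB w₀ hw₀W
        simp only [LinearMap.add_apply, Module.End.one_apply, map_add] at h3 h4 ⊢
        have h5 : A₁ w₁ + A₂ w₁ + A₂ w₁ =
            (w₀ + (A₁ w₁ + A₁ w₀) + (A₂ w₁ + (A₂ w₁ + A₂ w₀))) - (w₀ + A₁ w₀ + A₂ w₀) := by abel
        rw [h5, h3, h4, sub_zero]
    intro w hw
    have h4 := hB w hw
    have h5 := hC w hw
    simp only [LinearMap.add_apply, Module.End.one_apply] at h4 h5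
    have h6 : w + w + w = 0 := by
      have := LinearMap.congr_fun h3K w
      have h7 : (3 : Module.End K U) = 1 + 1 + 1 := by norm_num
      rw [h7] at this
      simpa using this
    -- `2 (w + A₁ w + A₂ w) - (A₁ w + 2 A₂ w) = 2 w + A₁ w`
    have h7 : A₁ w - w = (w + A₁ w + A₂ w) + (w + A₁ w + A₂ w) - (A₁ w + A₂ w + A₂ w) - (w + w + w) := by abel
    rw [h4, h5, h6] at h7
    simp only [add_zero, sub_zero] at h7
    exact sub_eq_zero.mp h7
  -- step two: the fixed space is everything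
  let F : Submodule K U :=
    { carrier := {v | ∀ n ∈ fx z, ρ (n⁻¹ * σ n) v = v}
      add_mem' := by
        intro a b ha hb n hn
        rw [map_add, ha n hn, hb n hn]
      zero_mem' := fun n _ => map_zero _
      smul_mem' := by
        intro c a ha n hn
        rw [map_smul, ha n hn] }
  have hF : F = ⊤ := by
    rcases hirr F (by
      intro g v hv
      obtain ⟨a, ha, n', hn', rfl⟩ := Brk.exists_decomp hQp z hzp g
      have h1 : ρ n' v ∈ F := by
        intro n hn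
        have h2 : n⁻¹ * σ n * n' = n' * (((n * n')⁻¹ * σ (n * n')) * (n'⁻¹ * σ n')⁻¹) := by
          rw [map_mul]; group
        have h3 : ρ (n'⁻¹ * σ n')⁻¹ v = v := by
          have h4 : ρ (n'⁻¹ * σ n')⁻¹ (ρ (n'⁻¹ * σ n') v) = v := by
            rw [← Module.End.mul_apply, ← map_mul, inv_mul_cancel, map_one, Module.End.one_apply]
          rwa [hv n' hn'] at h4
        rw [← Module.End.mul_apply, ← map_mul, h2, map_mul, map_mul, Module.End.mul_apply,
          Module.End.mul_apply, h3, hv _ (mul_mem hn hn')]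
      intro n hn
      rw [map_mul ρ a n', Module.End.mul_apply, ← Module.End.mul_apply, hcommM _ (hN1 n hn) a ha,
        Module.End.mul_apply, h1 n hn]) with h | h
    · exfalso
      apply hW
      rw [eq_bot_iff, ← h]
      intro w hw n hn
      exact hA n hn w hw
    · exact h
  intro n hn
  have h1 : ρ (n⁻¹ * σ n) = 1 := by
    ext v
    have : v ∈ F := by rw [hF]; trivial
    exact this n hn
  have h2 : n⁻¹ * σ n = 1 := hρ (h1.trans (map_one ρ).symm)
  exact (inv_mul_eq_one.mp h2).symm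

/-- `σ` centralizes the centre. -/
theorem center_fixed {K : Type*} [Field K] [IsAlgClosed K]
    {U : Type*} [AddCommGroup U] [Module K U] [FiniteDimensional K U] [Nontrivial U]
    {Q : Type*} [Group Q]
    (ρ : Q →* Module.End K U) (hρ : Function.Injective ρ) (hirr : IsIrr ρ)
    (σ : MulAut Q) (X : (Module.End K U)ˣ) (hX : ∀ g, (X : Module.End K U) * ρ g = ρ (σ g) * X) :
    ∀ c ∈ center Q, σ c = c := by
  intro c hc
  obtain ⟨s, hs⟩ := schur hirr (ρ c) (fun h => by
    rw [← map_mul, ← map_mul, mem_center_iff.mp hc h])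
  apply hρ
  have h1 := hX c
  rw [hs, mul_smul_comm, mul_one] at h1
  have h2 : s • (X : Module.End K U) = ρ c * X := by rw [hs, smul_mul_assoc, one_mul]
  rw [h2] at h1
  exact ((Units.mul_left_inj X).1 h1).symm

theorem single {K : Type*} [Field K] [IsAlgClosed K] {p : ℕ} [hp : Fact p.Prime] [CharP K p]
    (hp2 : p ≠ 2) {U : Type*} [AddCommGroup U] [Module K U] [FiniteDimensional K U] [Nontrivial U]
    {Q : Type*} [Group Q] [Finite Q] (hQ : IsPGroup 2 Q) (hcl : ∀ a b c : Q, ⁅a, b⁆ * c = c * ⁅a, b⁆)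
    (ρ : Q →* Module.End K U) (hρ : Function.Injective ρ) (hirr : IsIrr ρ)
    (σ : MulAut Q) (X : (Module.End K U)ˣ) (hX : ∀ g, (X : Module.End K U) * ρ g = ρ (σ g) * X) (m : ℕ)
    (hm : 1 ≤ m) (hXm : X ^ p ^ m = 1) (hr : ((X : Module.End K U) - 1) ^ (p ^ m - 1) = 0)
    (hz : σ ^ p ^ (m - 1) ≠ 1) :
    ∃ M : Subgroup Q, (∀ g, σ g * g⁻¹ ∈ M) ∧ (center Q).relIndex M = (p ^ m - 1) ^ 2 ∧
      (∀ g ∈ M, (σ ^ p ^ (m - 1)) g * g⁻¹ ∈ center Q → g ∈ center Q) := by
  have hfp2 : Fact (Nat.Prime 2) := ⟨Nat.prime_two⟩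
  have hcf := center_fixed ρ hρ hirr σ X hX
  have hXm' : (X : Module.End K U) ^ p ^ m = 1 := by
    rw [← Units.val_pow_eq_pow_val, hXm, Units.val_one]
  have hσ : σ ^ p ^ m = 1 := by
    ext g
    apply hρ
    have h1 := rho_pow hX (p ^ m) g
    rw [hXm', one_mul, mul_one] at h1
    exact h1.symm
  have hZk : ∀ k : ℕ, ∀ c ∈ center Q, (σ ^ k) c = c := by
    intro k c hc
    induction k with
    | zero => simp
    | succ k ih => rw [pow_succ', MulAut.mul_apply, ih, hcf c hc]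
  have hZ := hZk (p ^ (m - 1))
  obtain ⟨h1, W, hWbot, hWρ, hWirr, hWX, hWu⟩ :=
    relIndex_eq hp2 hQ hcl ρ hρ hirr σ X hX m hm hσ hZ hXm hr hz
  set z := σ ^ p ^ (m - 1) with hzdef
  have hzp : z ^ p = 1 := by
    rw [hzdef, ← pow_mul, ← pow_succ, Nat.sub_add_cancel hm, hσ]
  have hQp := not_dvd_card (p := p) hp2 hQ
  have hzσ : Commute z σ := by
    rw [hzdef]
    exact (Commute.refl σ).pow_left _
  refine ⟨brk z, ?_, h1, ?_⟩
  · obtain ⟨a, ha⟩ := IsPGroup.iff_card.1 hQ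
    have h2 : (p ^ m - 1) ∣ 2 ^ a := by
      rw [← ha]
      refine (Dvd.intro _ (pow_two _).symm).trans ?_
      rw [← h1]
      exact (Subgroup.relIndex_dvd_card _ _).trans (Subgroup.card_subgroup_dvd_card _)
    obtain ⟨b, _, hb⟩ := (Nat.dvd_prime_pow Nat.prime_two).mp h2
    rcases Elem.eq_one_or_nine hp.out hp2 hm hb with h3 | ⟨h3, h4⟩
    · intro g
      have : z = σ := by rw [hzdef, h3]; simp
      have h4 := mem_brk z g
      rwa [← this]
    · subst h3
      subst h4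
      have hz3 : z = σ ^ 3 := by rw [hzdef]; norm_num
      have hσ9 : σ ^ 9 = 1 := by simpa using hσ
      have hr8 : ((X : Module.End K U) - 1) ^ 8 = 0 := by simpa using hr
      have h5 := fixed_of_nine hQp hcl ρ hρ hirr σ X hX hσ9 (fun c hc => hZk 3 c hc) hr8 W hWbot
        (by rw [← hz3]; exact hWρ) (by rw [← hz3]; exact hWirr) hWX (by simpa using hWu)
      intro g
      obtain ⟨a, ha, n, hn, rfl⟩ := Brk.exists_decomp hQp z hzp g
      have h6 : σ n = n := h5 n (by rw [← hz3]; exact hn)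
      have h7 : σ (a * n) * (a * n)⁻¹ = σ a * a⁻¹ := by rw [map_mul, h6]; group
      rw [h7]
      exact mul_mem (brk_invariant hzσ ha) (inv_mem ha)
  · intro g hg hgc
    have h3 : g⁻¹ * z g ∈ center Q := by
      have h4 : g⁻¹ * z g = g⁻¹ * (z g * g⁻¹) * g⁻¹⁻¹ := by group
      rw [h4]
      exact (inferInstance : (center Q).Normal).conj_mem _ hgc _
    have h4 : z g = g := PLocal.HHBMinimal.apply_eq_of_fixed z g (hZ _ h3) p hzp
      (by simpa using PLocal.HHBMinimal.coprime_orderOf (p := p) (q := 2) hp2.symm hQ (g⁻¹ * z g) 1)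
    apply Brk.mem_center_of_mem hQp hzp hcl hZ hg
    intro b hb
    exact Brk.comm hcl hZ hb h4

end Cfsg.Agent.H450.Single
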