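import Mathlib
import Cfsg.Agent.H450.Single

/-!
# Two elements acting on an isotypic faithful representation of a `2`-group
-/

set_option autoImplicit false

namespace Cfsg.Agent.H450.StarMain

open Subgroup
open Cfsg.Agent.PLocal.HHBClifford Cfsg.Agent.PLocal.HHBLinear
open scoped commutatorElement

section homs

variable {R Q : Type*} [Group R] [Group Q]

theorem exists_restrict_hom (α : R →* MulAut Q) (L : Subgroup Q) (hL : ∀ r, ∀ g ∈ L, α r g ∈ L) :
    ∃ β : R →* MulAut L, ∀ r (g : L), ((β r g : L) : Q) = α r g := by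
  refine ⟨
    { toFun := fun r =>
        { toFun := fun g => ⟨α r g, hL r g g.2⟩
          invFun := fun g => ⟨α r⁻¹ g, hL r⁻¹ g g.2⟩
          left_inv := fun g => Subtype.ext (by simp)
          right_inv := fun g => Subtype.ext (by simp)
          map_mul' := fun g h => Subtype.ext (by simp) }
      map_one' := by ext g; simp
      map_mul' := by intro r s; ext g; simp }, fun r g => rfl⟩

theorem exists_quotient_hom (α : R →* MulAut Q) (N : Subgroup Q) [N.Normal] (hN : ∀ r, ∀ g ∈ N, α r g ∈ N) :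
    ∃ β : R →* MulAut (Q ⧸ N), ∀ r g, β r (QuotientGroup.mk' N g) = QuotientGroup.mk' N (α r g) := by
  have hle : ∀ r, N ≤ N.comap (α r).toMonoidHom := fun r g hg => hN r g hg
  refine ⟨
    { toFun := fun r =>
        { toFun := QuotientGroup.map N N (α r).toMonoidHom (hle r)
          invFun := QuotientGroup.map N N (α r⁻¹).toMonoidHom (hle r⁻¹)
          left_inv := ?_
          right_inv := ?_
          map_mul' := fun g h => map_mul _ g h }
      map_one' := ?_
      map_mul' := ?_ }, fun r g => rfl⟩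
  · intro x
    obtain ⟨g, rfl⟩ := QuotientGroup.mk'_surjective N x
    show QuotientGroup.mk' N (α r⁻¹ (α r g)) = _
    rw [map_inv, MulAut.inv_apply_self]
  · intro x
    obtain ⟨g, rfl⟩ := QuotientGroup.mk'_surjective N x
    show QuotientGroup.mk' N (α r (α r⁻¹ g)) = _
    rw [map_inv, MulAut.apply_inv_self]
  · ext x
    obtain ⟨g, rfl⟩ := QuotientGroup.mk'_surjective N x
    show QuotientGroup.mk' N (α 1 g) = _
    rw [map_one]
    rfl
  · intro r s
    ext x
    obtain ⟨g, rfl⟩ := QuotientGroup.mk'_surjective N x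
    show QuotientGroup.mk' N (α (r * s) g) = QuotientGroup.mk' N (α r (α s g))
    rw [map_mul]
    rfl

/-- invariance under the generators -/
theorem invariant_closure [Finite Q] (α : R →* MulAut Q) (L : Subgroup Q) (y₁ y₂ : R)
    (h₁ : ∀ g ∈ L, α y₁ g ∈ L) (h₂ : ∀ g ∈ L, α y₂ g ∈ L) :
    ∀ r ∈ closure ({y₁, y₂} : Set R), ∀ g ∈ L, α r g ∈ L := by
  have hmap : ∀ r : R, (∀ g ∈ L, α r g ∈ L) → L.map (α r).toMonoidHom = L := by
    intro r hr
    have hle : L.map (α r).toMonoidHom ≤ L := by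
      rintro _ ⟨g, hg, rfl⟩
      exact hr g hg
    exact Subgroup.eq_of_le_of_card_ge hle (Subgroup.card_map_of_injective (α r).injective).ge
  have hinv : ∀ r : R, (∀ g ∈ L, α r g ∈ L) → ∀ g ∈ L, α r⁻¹ g ∈ L := by
    intro r hr g hg
    rw [← hmap r hr] at hg
    obtain ⟨g', hg', rfl⟩ := hg
    show α r⁻¹ (α r g') ∈ L
    rw [map_inv, MulAut.inv_apply_self]
    exact hg'
  intro r hr
  induction hr using closure_induction with
  | mem r hr =>
    rcases hr with rfl | rfl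
    · exact h₁
    · exact h₂
  | one => intro g hg; simpa using hg
  | mul a b _ _ ha hb => intro g hg; rw [map_mul]; exact ha _ (hb _ hg)
  | inv a _ ha => exact hinv a ha

end homs

/-- **The isotypic case.** -/
theorem isotypic {K : Type*} [Field K] [IsAlgClosed K] {p k : ℕ} [hp : Fact p.Prime] [CharP K p]
    (hk : 2 ^ k + 1 = p) (hk1 : 1 ≤ k) {V : Type*} [AddCommGroup V] [Module K V] [FiniteDimensional K V]
    {Q : Type*} [Group Q] [Finite Q] (hQ : IsPGroup 2 Q) {R : Type*} [Group R] [Finite R] (hR : IsPGroup p R)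
    (α : R →* MulAut Q) (ρ : Q →* Module.End K V) (hρ : Function.Injective ρ) (y₁ y₂ : R)
    (X₁ X₂ : (Module.End K V)ˣ)
    (hX₁ : ∀ g, (X₁ : Module.End K V) * ρ g = ρ (α y₁ g) * X₁)
    (hX₂ : ∀ g, (X₂ : Module.End K V) * ρ g = ρ (α y₂ g) * X₂) (m₁ m₂ : ℕ) (hm₁ : 1 ≤ m₁) (hm₂ : 1 ≤ m₂)
    (hXm₁ : X₁ ^ p ^ m₁ = 1) (hXm₂ : X₂ ^ p ^ m₂ = 1)
    (hr₁ : ((X₁ : Module.End K V) - 1) ^ (p ^ m₁ - 1) = 0)
    (hr₂ : ((X₂ : Module.End K V) - 1) ^ (p ^ m₂ - 1) = 0)
    (U₀ : Submodule (alg ρ) V) (hU₀ : IsSimpleModule (alg ρ) U₀)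
    (htop : isotypicComponent (alg ρ) V U₀ = ⊤)
    (hL : ∀ L : Subgroup Q, L ≠ ⊤ → (∀ g ∈ L, α y₁ g ∈ L) → (∀ g ∈ L, α y₂ g ∈ L) → ∀ g ∈ L,
      α (y₁ ^ p ^ (m₁ - 1)) (α (y₂ ^ p ^ (m₂ - 1)) g) = α (y₂ ^ p ^ (m₂ - 1)) (α (y₁ ^ p ^ (m₁ - 1)) g)) :
    ∀ g, α (y₁ ^ p ^ (m₁ - 1)) (α (y₂ ^ p ^ (m₂ - 1)) g) = α (y₂ ^ p ^ (m₂ - 1)) (α (y₁ ^ p ^ (m₁ - 1)) g) := by
  classical
  have hfp2 : Fact (Nat.Prime 2) := ⟨Nat.prime_two⟩
  have hp2 : p ≠ 2 := by
    intro h
    have h2 : 2 ^ 1 ≤ 2 ^ k := Nat.pow_le_pow_right (by norm_num) hk1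
    omega
  -- general form of the claim
  set c₁ := y₁ ^ p ^ (m₁ - 1) with hc₁
  set c₂ := y₂ ^ p ^ (m₂ - 1) with hc₂
  set t := ⁅c₁, c₂⁆ with ht
  set R' := closure ({y₁, y₂} : Set R) with hR'
  have hy₁ : y₁ ∈ R' := Subgroup.subset_closure (by simp)
  have hy₂ : y₂ ∈ R' := Subgroup.subset_closure (by simp)
  have hc₁R : c₁ ∈ R' := R'.pow_mem hy₁ _
  have hc₂R : c₂ ∈ R' := R'.pow_mem hy₂ _
  by_contra hcon
  have htne : ¬ ∀ g, α t g = g := by
    intro h
    apply hcon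
    intro g
    have h1 := h (α c₂ (α c₁ g))
    rw [← MulAut.mul_apply, ← MulAut.mul_apply, ← map_mul, ← map_mul] at h1
    have h2 : t * c₂ * c₁ = c₁ * c₂ := by rw [ht, commutatorElement_def]; group
    rw [h2, map_mul, MulAut.mul_apply] at h1
    exact h1
  have hLt : ∀ L : Subgroup Q, L ≠ ⊤ → (∀ r ∈ R', ∀ g ∈ L, α r g ∈ L) → ∀ g ∈ L, α t g = g := by
    intro L hLtop hinv g hg
    have h1 := hL L hLtop (hinv y₁ hy₁) (hinv y₂ hy₂) (α c₁⁻¹ (α c₂⁻¹ g))
      (hinv _ (inv_mem hc₁R) _ (hinv _ (inv_mem hc₂R) g hg))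
    rw [← MulAut.mul_apply, ← MulAut.mul_apply, ← MulAut.mul_apply, ← map_mul, ← map_mul, ← map_mul,
      ← MulAut.mul_apply, ← MulAut.mul_apply, ← MulAut.mul_apply, ← map_mul, ← map_mul, ← map_mul] at h1
    have e1 : c₁ * c₂ * c₁⁻¹ * c₂⁻¹ = t := by rw [ht, commutatorElement_def]
    have e2 : c₂ * c₁ * c₁⁻¹ * c₂⁻¹ = 1 := by group
    rw [e1, e2, map_one, MulAut.one_apply] at h1
    exact h1
  -- the conjugates of `t`
  have hLt' : ∀ L : Subgroup Q, L ≠ ⊤ → (∀ r ∈ R', ∀ g ∈ L, α r g ∈ L) → ∀ r ∈ R', ∀ g ∈ L,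
      α (r * t * r⁻¹) g = g := by
    intro L hLtop hinv r hr g hg
    rw [map_mul, map_mul, MulAut.mul_apply, MulAut.mul_apply, hLt L hLtop hinv _ (hinv _ (inv_mem hr) g hg),
      map_inv, MulAut.apply_inv_self]
  obtain ⟨a, ha⟩ := hR t
  have hta : (α t) ^ (p ^ a) = 1 := by rw [← map_pow, ha, map_one]
  -- `B = ⊤`
  set B := closure {w : Q | ∃ r ∈ R', ∃ g, w = α (r * t * r⁻¹) g * g⁻¹} with hB
  have hBtop : B = ⊤ := by
    by_contra hne
    apply htne
    have hinv : ∀ r ∈ R', ∀ g ∈ B, α r g ∈ B := by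
      intro r hr g hg
      induction hg using closure_induction with
      | mem w hw =>
        obtain ⟨s, hs, g, rfl⟩ := hw
        rw [map_mul, map_inv]
        apply Subgroup.subset_closure
        refine ⟨r * s, R'.mul_mem hr hs, α r g, ?_⟩
        congr 1
        rw [← MulAut.mul_apply, ← MulAut.mul_apply, ← map_mul, ← map_mul]
        congr 2
        group
      | one => rw [map_one]; exact one_mem _
      | mul a b _ _ ha hb => rw [map_mul]; exact mul_mem ha hb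
      | inv a _ ha => rw [map_inv]; exact inv_mem ha
    intro g
    have h0 : ∀ g, α t g * g⁻¹ ∈ B := fun g => Subgroup.subset_closure ⟨1, one_mem _, g, by simp⟩
    have h1 : α t (α t g⁻¹ * g⁻¹⁻¹) = α t g⁻¹ * g⁻¹⁻¹ := hLt B hne hinv _ (h0 g⁻¹)
    have h2 : α t (g⁻¹ * α t g) = g⁻¹ * α t g := by
      have h3 : g⁻¹ * α t g = (α t g⁻¹ * g⁻¹⁻¹)⁻¹ := by
        rw [map_inv]; group
      rw [h3, map_inv, h1]
    exact PLocal.HHBMinimal.apply_eq_of_fixed (α t) g h2 (p ^ a) hta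
      (PLocal.HHBMinimal.coprime_orderOf (p := p) (q := 2) hp2.symm hQ (g⁻¹ * α t g) a)
  -- proper normal invariant subgroups are central
  have hcen : ∀ D : Subgroup Q, D.Normal → D ≠ ⊤ → (∀ r ∈ R', ∀ g ∈ D, α r g ∈ D) → D ≤ center Q := by
    intro D hDn hDtop hinv d hd
    have h1 : B ≤ centralizer {d} := by
      rw [hB, closure_le]
      rintro _ ⟨r, hr, g, rfl⟩
      rw [SetLike.mem_coe, mem_centralizer_singleton_iff]
      have h2 := hLt' D hDtop hinv r hr d hd
      have h3 := hLt' D hDtop hinv r hr (g⁻¹ * d * g) (by simpa using hDn.conj_mem d hd g⁻¹)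
      rw [map_mul, map_mul, map_inv, h2] at h3
      have h4 : d * (α (r * t * r⁻¹) g * g⁻¹) =
          α (r * t * r⁻¹) g * ((α (r * t * r⁻¹) g)⁻¹ * d * α (r * t * r⁻¹) g) * g⁻¹ := by group
      rw [h4, h3]
      group
    rw [mem_center_iff]
    intro g
    have : g ∈ centralizer {d} := h1 (by rw [hBtop]; trivial)
    exact (mem_centralizer_singleton_iff.mp this)
  -- class two
  have hQ1 : Nontrivial Q := by
    by_contra hcon
    rw [not_nontrivial_iff_subsingleton] at hcon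
    exact htne (fun g => Subsingleton.elim _ _)
  have hnil : Group.IsNilpotent Q := hQ.isNilpotent
  have hcomm_ne : commutator Q ≠ ⊤ := (Group.IsSolvable.commutator_lt_top_of_nontrivial Q).ne
  have hchar : ∀ H : Subgroup Q, H.Characteristic → ∀ r, ∀ g ∈ H, α r g ∈ H := by
    intro H hH r g hg
    exact (Subgroup.characteristic_iff_map_le.mp hH) (α r) ⟨g, hg, rfl⟩
  have hcomm : commutator Q ≤ center Q :=
    hcen _ inferInstance hcomm_ne (fun r _ => hchar _ inferInstance r)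
  have hcl : ∀ a b c : Q, ⁅a, b⁆ * c = c * ⁅a, b⁆ := fun a b c =>
    (mem_center_iff.mp (hcomm (commutator_mem_commutator (mem_top a) (mem_top b))) c).symm
  -- the single element data
  have hdata : ∀ (y : R) (X : (Module.End K V)ˣ) (hX : ∀ g, (X : Module.End K V) * ρ g = ρ (α y g) * X)
      (m : ℕ) (hm : 1 ≤ m) (hXm : X ^ p ^ m = 1) (hr : ((X : Module.End K V) - 1) ^ (p ^ m - 1) = 0),
      (∀ c ∈ center Q, α y c = c) ∧ (α y ^ p ^ (m - 1) ≠ 1 → ∃ M : Subgroup Q, (∀ g, α y g * g⁻¹ ∈ M) ∧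
        (center Q).relIndex M = (p ^ m - 1) ^ 2 ∧
        (∀ g ∈ M, (α y ^ p ^ (m - 1)) g * g⁻¹ ∈ center Q → g ∈ center Q)) := by
    intro y X hX m hm hXm hr
    obtain ⟨W, hWbot, hWρ, hWirr, hWX, hWfaith⟩ := Iso.exists_stable_of_isotypic ρ X (α y) hX U₀ hU₀ htop
    obtain ⟨ρW, hρW⟩ := Iso.exists_restrict ρ W hWρ
    have hirrW := Iso.isIrr_restrict ρ W hWirr ρW hρW
    have hWn : Nontrivial W := Submodule.nontrivial_iff_ne_bot.2 hWbot
    have hρWinj : Function.Injective ρW := by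
      rw [← MonoidHom.ker_eq_bot_iff, eq_bot_iff]
      intro g hg
      rw [MonoidHom.mem_ker] at hg
      rw [Subgroup.mem_bot]
      have h1 : ρ g = 1 := by
        apply hWfaith
        intro u hu
        have h2 := congrArg Subtype.val (LinearMap.congr_fun hg ⟨u, hu⟩)
        rw [hρW] at h2
        exact h2
      exact hρ (h1.trans (map_one ρ).symm)
    let Y₀ : Module.End K W := (X : Module.End K V).restrict hWX
    have hY₀ : ∀ u : W, ((Y₀ u : W) : V) = (X : Module.End K V) u := fun u => rfl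
    have hXm' : (X : Module.End K V) ^ p ^ m = 1 := by
      rw [← Units.val_pow_eq_pow_val, hXm, Units.val_one]
    have hY₀pow : Y₀ ^ (p ^ m) = 1 := by
      ext u
      rw [PLocal.HHBCoreAux.restrict_pow_apply W X Y₀ hY₀, hXm']
      rfl
    have hpm : p ^ m ≠ 0 := (pow_pos hp.out.pos m).ne'
    obtain ⟨Y, hYval⟩ : ∃ Y : (Module.End K W)ˣ, (Y : Module.End K W) = Y₀ :=
      IsUnit.of_pow_eq_one hY₀pow hpm
    have hYρ : ∀ h, (Y : Module.End K W) * ρW h = ρW (α y h) * Y := by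
      intro h
      rw [hYval]
      ext u
      change (X : Module.End K V) ((ρW h u : W) : V) = ((ρW (α y h) (Y₀ u) : W) : V)
      rw [hρW, hρW, hY₀]
      exact LinearMap.congr_fun (hX h) (u : V)
    refine ⟨Single.center_fixed ρW hρWinj hirrW (α y) Y hYρ, fun hz => ?_⟩
    exact Single.single hp2 hQ hcl ρW hρWinj hirrW (α y) Y hYρ m hm
      (by
        apply Units.ext
        rw [Units.val_pow_eq_pow_val, hYval, hY₀pow, Units.val_one])
      (by
        rw [hYval]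
        ext u
        rw [PLocal.HHBCoreAux.restrict_pow_apply W ((X : Module.End K V) - 1) (Y₀ - 1) (fun u => rfl), hr]
        rfl) hz
  obtain ⟨hZ₁, hd₁⟩ := hdata y₁ X₁ hX₁ m₁ hm₁ hXm₁ hr₁
  obtain ⟨hZ₂, hd₂⟩ := hdata y₂ X₂ hX₂ m₂ hm₂ hXm₂ hr₂
  have hαpow : ∀ (y : R) (i : ℕ), α y ^ i = α (y ^ i) := fun y i => (map_pow α y i).symm
  obtain ⟨M₁, hM₁, hcard₁, hf₁⟩ := hd₁ (by
    rw [hαpow]
    intro h
    apply hcon
    intro g
    rw [h]; rfl)
  obtain ⟨M₂, hM₂, hcard₂, hf₂⟩ := hd₂ (by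
    rw [hαpow]
    intro h
    apply hcon
    intro g
    rw [h]; rfl)
  rw [hαpow, ← hc₁] at hf₁
  rw [hαpow, ← hc₂] at hf₂
  have hZR : ∀ r ∈ R', ∀ c ∈ center Q, α r c = c := by
    intro r hr
    induction hr using closure_induction with
    | mem r hr =>
      rcases hr with rfl | rfl
      · exact hZ₁
      · exact hZ₂
    | one => intro c _; simp
    | mul a b _ _ ha hb => intro c hc; rw [map_mul, MulAut.mul_apply, hb c hc, ha c hc]
    | inv a _ ha =>
      intro c hc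
      have h1 := ha c hc
      rw [map_inv, MulAut.inv_apply, MulEquiv.symm_apply_eq]
      exact h1.symm
  have htR : t ∈ R' := by
    rw [ht, commutatorElement_def]
    exact mul_mem (mul_mem (mul_mem hc₁R hc₂R) (inv_mem hc₁R)) (inv_mem hc₂R)
  -- the quotient
  obtain ⟨β, hβ⟩ := exists_quotient_hom α (center Q) (hchar _ inferInstance)
  let _ : CommGroup (Q ⧸ center Q) :=
    { (inferInstance : Group (Q ⧸ center Q)) with
      mul_comm := by
        intro x y
        obtain ⟨g, rfl⟩ := QuotientGroup.mk'_surjective _ x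
        obtain ⟨h, rfl⟩ := QuotientGroup.mk'_surjective _ y
        rw [← map_mul, ← map_mul]
        apply (QuotientGroup.eq).mpr
        have h1 : (g * h)⁻¹ * (h * g) = ⁅h⁻¹, g⁻¹⁆ := by rw [commutatorElement_def]; group
        rw [h1]
        exact hcomm (commutator_mem_commutator (mem_top _) (mem_top _)) }
  have hfin : Finite (Q ⧸ center Q) := inferInstance
  -- irreducibility
  have hirrE : ∀ D : Subgroup (Q ⧸ center Q), (∀ e ∈ D, β y₁ e ∈ D) → (∀ e ∈ D, β y₂ e ∈ D) →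
      D = ⊥ ∨ D = ⊤ := by
    intro D hD₁ hD₂
    set L := D.comap (QuotientGroup.mk' (center Q)) with hLdef
    have hL₁ : ∀ g ∈ L, α y₁ g ∈ L := by
      intro g hg
      show QuotientGroup.mk' (center Q) (α y₁ g) ∈ D
      rw [← hβ]
      exact hD₁ _ hg
    have hL₂ : ∀ g ∈ L, α y₂ g ∈ L := by
      intro g hg
      show QuotientGroup.mk' (center Q) (α y₂ g) ∈ D
      rw [← hβ]
      exact hD₂ _ hg
    have hLn : L.Normal := by
      have : D.Normal := inferInstance
      exact this.comap _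
    by_cases hLtop : L = ⊤
    · right
      rw [eq_top_iff]
      intro x _
      obtain ⟨g, rfl⟩ := QuotientGroup.mk'_surjective _ x
      have : g ∈ L := by rw [hLtop]; trivial
      exact this
    · left
      rw [eq_bot_iff]
      intro x hx
      obtain ⟨g, rfl⟩ := QuotientGroup.mk'_surjective _ x
      have h1 : g ∈ center Q := hcen L hLn hLtop (invariant_closure α L y₁ y₂ hL₁ hL₂) hx
      rw [Subgroup.mem_bot]
      exact (QuotientGroup.eq_one_iff g).2 h1
  have hEp : IsPGroup 2 (Q ⧸ center Q) := hQ.to_quotient _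
  have hE2 : ∀ e : Q ⧸ center Q, e ^ 2 = 1 := by
    rcases hirrE (powMonoidHom 2 : (Q ⧸ center Q) →* (Q ⧸ center Q)).range
      (by rintro _ ⟨e, rfl⟩; exact ⟨β y₁ e, by simp⟩)
      (by rintro _ ⟨e, rfl⟩; exact ⟨β y₂ e, by simp⟩) with h | h
    · intro e
      have : (powMonoidHom 2 : (Q ⧸ center Q) →* (Q ⧸ center Q)) e ∈
          (powMonoidHom 2 : (Q ⧸ center Q) →* (Q ⧸ center Q)).range := ⟨e, rfl⟩
      rw [h, Subgroup.mem_bot] at this
      exact this
    · have hsurj : Function.Surjective (powMonoidHom 2 : (Q ⧸ center Q) →* (Q ⧸ center Q)) :=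
        MonoidHom.range_eq_top.mp h
      have hinj := Finite.injective_iff_surjective.mpr hsurj
      intro e
      obtain ⟨j, hj⟩ := hEp e
      have h1 : ∀ j : ℕ, ∀ e : Q ⧸ center Q, e ^ 2 ^ j = 1 → e = 1 := by
        intro j
        induction j with
        | zero => intro e he; simpa using he
        | succ j ih =>
          intro e he
          apply ih
          apply hinj
          rw [map_one]
          show (e ^ 2 ^ j) ^ 2 = 1
          rw [← pow_mul, ← pow_succ]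
          exact he
      rw [h1 j e hj, one_pow]
  have hrhopow : ∀ (y : R) (X : (Module.End K V)ˣ) (hX : ∀ g, (X : Module.End K V) * ρ g = ρ (α y g) * X)
      (m : ℕ) (hXm : X ^ p ^ m = 1), α (y ^ p ^ m) = 1 := by
    intro y X hX m hXm
    ext g
    apply hρ
    have h1 := Single.rho_pow hX (p ^ m) g
    have hXm' : (X : Module.End K V) ^ p ^ m = 1 := by
      rw [← Units.val_pow_eq_pow_val, hXm, Units.val_one]
    rw [hXm', one_mul, mul_one, hαpow] at h1
    exact h1.symm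
  have hβ1 : ∀ r, α r = 1 → β r = 1 := by
    intro r hr
    ext x
    obtain ⟨g, rfl⟩ := QuotientGroup.mk'_surjective _ x
    rw [hβ, hr]
    rfl
  have hkey : ∀ g : Q, ∀ M : Subgroup Q, ∀ c : R,
      (∀ g ∈ M, α c g * g⁻¹ ∈ center Q → g ∈ center Q) →
      ∀ e ∈ M.map (QuotientGroup.mk' (center Q)), β c e = e → e = 1 := by
    rintro - M c hc _ ⟨g, hg, rfl⟩ he
    rw [hβ] at he
    have h1 : α c g * g⁻¹ ∈ center Q := by
      rw [← QuotientGroup.ker_mk' (center Q), MonoidHom.mem_ker, map_mul, map_inv, he, mul_inv_cancel]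
    exact (QuotientGroup.eq_one_iff g).2 (hc g hg h1)
  have hcommE := Elem.final (p := p) (k := k) hk hk1 hE2 β.range
    (by
      rintro ⟨_, r, rfl⟩
      obtain ⟨j, hj⟩ := hR r
      refine ⟨j, Subtype.ext ?_⟩
      show (β r) ^ p ^ j = 1
      rw [← map_pow, hj, map_one])
    (β y₁) (β y₂) ⟨y₁, rfl⟩ ⟨y₂, rfl⟩ hirrE m₁ m₂ hm₁ hm₂
    (by rw [← map_pow]; exact hβ1 _ (hrhopow y₁ X₁ hX₁ m₁ hXm₁))
    (by rw [← map_pow]; exact hβ1 _ (hrhopow y₂ X₂ hX₂ m₂ hXm₂))
    (M₁.map (QuotientGroup.mk' (center Q))) (M₂.map (QuotientGroup.mk' (center Q)))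
    (by
      intro e
      obtain ⟨g, rfl⟩ := QuotientGroup.mk'_surjective _ e
      exact ⟨α y₁ g * g⁻¹, hM₁ g, by rw [map_mul, map_inv, hβ]⟩)
    (by
      intro e
      obtain ⟨g, rfl⟩ := QuotientGroup.mk'_surjective _ e
      exact ⟨α y₂ g * g⁻¹, hM₂ g, by rw [map_mul, map_inv, hβ]⟩)
    (by rw [← Subgroup.relIndex_ker, QuotientGroup.ker_mk', hcard₁])
    (by rw [← Subgroup.relIndex_ker, QuotientGroup.ker_mk', hcard₂])
    (by rw [← map_pow]; exact hkey 1 M₁ c₁ hf₁)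
    (by rw [← map_pow]; exact hkey 1 M₂ c₂ hf₂)
  rw [← map_pow, ← map_pow, ← hc₁, ← hc₂] at hcommE
  have hβt : β t = 1 := by
    rw [ht, map_commutatorElement, commutatorElement_eq_one_iff_commute]
    exact hcommE
  apply htne
  intro g
  have h1 : g⁻¹ * α t g ∈ center Q := by
    have h2 := hβ t g
    rw [hβt, MulAut.one_apply] at h2
    exact (QuotientGroup.eq).mp h2
  exact PLocal.HHBMinimal.apply_eq_of_fixed (α t) g (hZR t htR _ h1) (p ^ a) hta
    (PLocal.HHBMinimal.coprime_orderOf (p := p) (q := 2) hp2.symm hQ (g⁻¹ * α t g) a)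

end Cfsg.Agent.H450.StarMain
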