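import Mathlib
import Cfsg.Agent.H450.StarMain

/-!
# Commuting powers: two elements acting on a `2`-group in odd characteristic `p = 2^k + 1`
-/

set_option autoImplicit false

namespace Cfsg.Agent.H450.Star

open Subgroup Module
open Cfsg.Agent.PLocal.HHBClifford Cfsg.Agent.PLocal.HHBLinear
open Cfsg.Agent.H450.StarMain
open scoped commutatorElement

universe u v w r

/-- Maschke -/
theorem semisimple_alg {K V Q : Type*} [Field K] [AddCommGroup V] [Module K V] [Group Q] [Finite Q]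
    (hcard : (Nat.card Q : K) ≠ 0) (ρ : Q →* Module.End K V) : IsSemisimpleModule (alg ρ) V := by
  have : NeZero (Nat.card Q : K) := ⟨hcard⟩
  have hQ : IsSemisimpleRing (MonoidAlgebra K Q) := inferInstance
  let φ : MonoidAlgebra K Q →ₐ[K] Module.End K V := MonoidAlgebra.lift K (Module.End K V) Q ρ
  have hφ : ∀ x, φ x ∈ alg ρ := by
    intro x
    induction x using MonoidAlgebra.induction_on with
    | of g => simpa [φ] using rho_mem_alg ρ g
    | add a b ha hb => rw [map_add]; exact add_mem ha hb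
    | smul r a ha => rw [map_smul]; exact (alg ρ).smul_mem ha r
  let ψ : MonoidAlgebra K Q →ₐ[K] alg ρ := φ.codRestrict (alg ρ) hφ
  have hψ : Function.Surjective ψ := by
    rintro ⟨a, ha⟩
    have h1 : alg ρ ≤ φ.range := by
      refine Algebra.adjoin_le ?_
      rintro _ ⟨g, rfl⟩
      exact ⟨MonoidAlgebra.of K Q g, by simp [φ]⟩
    obtain ⟨x, hx⟩ := h1 ha
    exact ⟨x, Subtype.ext hx⟩
  have : IsSemisimpleRing (alg ρ) := RingHom.isSemisimpleRing_of_surjective ψ.toRingHom hψ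
  infer_instance

/-- the data on an isotypic component which is not everything -/
theorem component_data {K : Type w} [Field K] {p : ℕ} [hp : Fact p.Prime] [CharP K p]
    {V : Type v} [AddCommGroup V] [Module K V] {Q : Type u} [Group Q] (ρ : Q →* Module.End K V)
    (X : (Module.End K V)ˣ) (σ : MulAut Q) (hX : ∀ h, (X : Module.End K V) * ρ h = ρ (σ h) * X) (m : ℕ)
    (hXm : X ^ (p ^ m) = 1) (hr : ((X : Module.End K V) - 1) ^ (p ^ m - 1) = 0)
    (U₀ : Submodule (alg ρ) V) (hU₀ : IsSimpleModule (alg ρ) U₀) :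
    ∃ s < m, (∀ v ∈ isotypicComponent (alg ρ) V U₀, ((X : Module.End K V) ^ p ^ s) v ∈
        isotypicComponent (alg ρ) V U₀) ∧
      (∀ v ∈ isotypicComponent (alg ρ) V U₀, ∑ i ∈ Finset.range (p ^ s), ((X : Module.End K V) ^ i) v = 0 →
        v = 0) := by
  have hN := nrm_alg hX
  set C := isotypicComponent (alg ρ) V U₀ with hC
  have hper : Function.IsPeriodicPt (tw hN) (p ^ m) C := by
    show (tw hN)^[p ^ m] C = C
    ext v
    rw [mem_tw_iterate, inv_pow, hXm, inv_one, Units.val_one, Module.End.one_apply]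
  obtain ⟨s, hs, hms⟩ := (Nat.dvd_prime_pow hp.out).1 hper.minimalPeriod_dvd
  have hpos : 0 < p ^ s := pow_pos hp.out.pos s
  have hCs : (tw hN)^[p ^ s] C = C := by
    rw [← hms]
    exact Function.iterate_minimalPeriod
  have hinj : Set.InjOn (fun i => (tw hN)^[i] C) (Set.Iio (p ^ s)) := by
    rw [← hms]
    exact Function.iterate_injOn_Iio_minimalPeriod
  have hind : ∀ v ∈ C, ∑ i ∈ Finset.range (p ^ s), ((X : Module.End K V) ^ i) v = 0 → v = 0 := by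
    intro v hv hsum
    have h1 := independent hN hU₀ (p ^ s) hinj (fun i => ((X : Module.End K V) ^ i) v)
      (fun i _ => apply_mem_tw_iterate hN i hv) hsum 0 hpos
    simpa using h1
  refine ⟨s, lt_of_le_of_ne hs ?_, ?_, hind⟩
  · rintro rfl
    have h1 : C = ⊥ := by
      rw [Submodule.eq_bot_iff]
      intro v hv
      apply hind v hv
      have h2 := PLocal.HHBUnip.geom_eq K p (X : Module.End K V) s
      rw [← LinearMap.sum_apply, h2, hr, LinearMap.zero_apply]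
    exact (bot_lt_isotypicComponent (R := alg ρ) (M := V) U₀).ne' h1
  · intro v hv
    have h1 := apply_mem_tw_iterate hN (p ^ s) hv
    rwa [hCs] at h1

/-- The statement for vector spaces of dimension `d` and groups of order `m`. -/
def StarFor (K : Type w) [Field K] (p d m : ℕ) : Prop :=
  ∀ (V : Type v) [AddCommGroup V] [Module K V] [FiniteDimensional K V] (_ : finrank K V = d)
    (Q : Type u) [Group Q] [Finite Q] (_ : IsPGroup 2 Q) (_ : Nat.card Q = m)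
    (R : Type r) [Group R] [Finite R] (_ : IsPGroup p R) (α : R →* MulAut Q)
    (ρ : Q →* Module.End K V) (y₁ y₂ : R) (X₁ X₂ : (Module.End K V)ˣ)
    (_ : ∀ g, (X₁ : Module.End K V) * ρ g = ρ (α y₁ g) * X₁)
    (_ : ∀ g, (X₂ : Module.End K V) * ρ g = ρ (α y₂ g) * X₂) (m₁ m₂ : ℕ) (_ : 1 ≤ m₁) (_ : 1 ≤ m₂)
    (_ : X₁ ^ p ^ m₁ = 1) (_ : X₂ ^ p ^ m₂ = 1)
    (_ : ((X₁ : Module.End K V) - 1) ^ (p ^ m₁ - 1) = 0) (_ : ((X₂ : Module.End K V) - 1) ^ (p ^ m₂ - 1) = 0),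
    ∀ g, ρ (α (y₁ ^ p ^ (m₁ - 1)) (α (y₂ ^ p ^ (m₂ - 1)) g)) =
      ρ (α (y₂ ^ p ^ (m₂ - 1)) (α (y₁ ^ p ^ (m₁ - 1)) g))

theorem starFor {K : Type w} [Field K] [IsAlgClosed K] {p k : ℕ} [hp : Fact p.Prime] [CharP K p]
    (hk : 2 ^ k + 1 = p) (hk1 : 1 ≤ k) : ∀ d m : ℕ, StarFor.{u, v, w, r} K p d m := by
  intro d
  induction d using Nat.strong_induction_on with
  | _ d ihd =>
  intro n
  induction n using Nat.strong_induction_on with
  | _ n ihn =>
  intro V _ _ _ hd Q _ _ hQ hn R _ _ hR α ρ y₁ y₂ X₁ X₂ hX₁ hX₂ m₁ m₂ hm₁ hm₂ hXm₁ hXm₂ hr₁ hr₂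
  have hp2 : p ≠ 2 := by
    intro h
    have h2 : 2 ^ 1 ≤ 2 ^ k := Nat.pow_le_pow_right (by norm_num) hk1
    omega
  set R' := closure ({y₁, y₂} : Set R) with hR'
  have hy₁ : y₁ ∈ R' := Subgroup.subset_closure (by simp)
  have hy₂ : y₂ ∈ R' := Subgroup.subset_closure (by simp)
  have hR'p : IsPGroup p R' := hR.to_subgroup R'
  by_cases hinj : Function.Injective ρ
  swap
  · -- pass to the quotient by the kernel
    have hker₁ : ∀ g ∈ ρ.ker, α y₁ g ∈ ρ.ker := by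
      intro g hg
      rw [MonoidHom.mem_ker] at hg ⊢
      have h1 := hX₁ g
      rw [hg, mul_one] at h1
      exact (Units.mul_left_inj X₁).1 (by rw [one_mul]; exact h1.symm)
    have hker₂ : ∀ g ∈ ρ.ker, α y₂ g ∈ ρ.ker := by
      intro g hg
      rw [MonoidHom.mem_ker] at hg ⊢
      have h1 := hX₂ g
      rw [hg, mul_one] at h1
      exact (Units.mul_left_inj X₂).1 (by rw [one_mul]; exact h1.symm)
    have hkerR := invariant_closure α ρ.ker y₁ y₂ hker₁ hker₂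
    obtain ⟨β, hβ⟩ := exists_quotient_hom (α.comp R'.subtype) ρ.ker (fun r g hg => hkerR r r.2 g hg)
    have hcard : Nat.card (Q ⧸ ρ.ker) < n := by
      rw [← hn]
      have hne : ρ.ker ≠ ⊥ := fun h => hinj ((MonoidHom.ker_eq_bot_iff ρ).1 h)
      have h1 : 1 < Nat.card ρ.ker := (Subgroup.one_lt_card_iff_ne_bot _).2 hne
      have h2 := Subgroup.card_eq_card_quotient_mul_card_subgroup ρ.ker
      have h3 : 0 < Nat.card (Q ⧸ ρ.ker) := Nat.card_pos
      rw [h2]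
      exact lt_mul_of_one_lt_right h3 h1
    have hlift : ∀ g : Q, QuotientGroup.lift ρ.ker ρ (fun x hx => hx) (QuotientGroup.mk' ρ.ker g)
        = ρ g := fun g => rfl
    have h := ihn _ hcard V hd (Q ⧸ ρ.ker) (hQ.to_quotient _) rfl R' hR'p β
      (QuotientGroup.lift ρ.ker ρ (fun x hx => hx)) ⟨y₁, hy₁⟩ ⟨y₂, hy₂⟩ X₁ X₂
      (by
        intro g
        obtain ⟨g, rfl⟩ := QuotientGroup.mk'_surjective _ g
        rw [hβ, hlift, hlift]
        exact hX₁ g)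
      (by
        intro g
        obtain ⟨g, rfl⟩ := QuotientGroup.mk'_surjective _ g
        rw [hβ, hlift, hlift]
        exact hX₂ g) m₁ m₂ hm₁ hm₂ hXm₁ hXm₂ hr₁ hr₂
    intro g
    have h1 := h (QuotientGroup.mk' ρ.ker g)
    rw [hβ, hβ, hβ, hβ, hlift, hlift] at h1
    exact h1
  -- proper invariant subgroups
  have hL : ∀ L : Subgroup Q, L ≠ ⊤ → (∀ g ∈ L, α y₁ g ∈ L) → (∀ g ∈ L, α y₂ g ∈ L) → ∀ g ∈ L,
      α (y₁ ^ p ^ (m₁ - 1)) (α (y₂ ^ p ^ (m₂ - 1)) g) = α (y₂ ^ p ^ (m₂ - 1)) (α (y₁ ^ p ^ (m₁ - 1)) g) := by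
    intro L hLtop hL₁ hL₂ g hg
    have hLR := invariant_closure α L y₁ y₂ hL₁ hL₂
    obtain ⟨β, hβ⟩ := exists_restrict_hom (α.comp R'.subtype) L (fun r g hg => hLR r r.2 g hg)
    have hcard : Nat.card L < n := by
      rw [← hn]
      exact lt_of_le_of_ne (Subgroup.card_le_card_group L) fun h => hLtop (Subgroup.eq_top_of_card_eq L h)
    have h := ihn _ hcard V hd L (hQ.to_subgroup _) rfl R' hR'p β (ρ.comp L.subtype)
      ⟨y₁, hy₁⟩ ⟨y₂, hy₂⟩ X₁ X₂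
      (by
        intro g
        change (X₁ : Module.End K V) * ρ (g : Q) = ρ ((β ⟨y₁, hy₁⟩ g : L) : Q) * X₁
        rw [hβ]
        exact hX₁ g)
      (by
        intro g
        change (X₂ : Module.End K V) * ρ (g : Q) = ρ ((β ⟨y₂, hy₂⟩ g : L) : Q) * X₂
        rw [hβ]
        exact hX₂ g) m₁ m₂ hm₁ hm₂ hXm₁ hXm₂ hr₁ hr₂ ⟨g, hg⟩
    apply hinj
    change ρ ((β (⟨y₁, hy₁⟩ ^ p ^ (m₁ - 1)) (β (⟨y₂, hy₂⟩ ^ p ^ (m₂ - 1)) ⟨g, hg⟩) : L) : Q) =
      ρ ((β (⟨y₂, hy₂⟩ ^ p ^ (m₂ - 1)) (β (⟨y₁, hy₁⟩ ^ p ^ (m₁ - 1)) ⟨g, hg⟩) : L) : Q) at h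
    rw [hβ, hβ, hβ, hβ] at h
    exact h
  -- semisimplicity
  have hcardQ : (Nat.card Q : K) ≠ 0 := by
    intro h0
    rw [CharP.cast_eq_zero_iff K p] at h0
    exact Single.not_dvd_card (p := p) hp2 hQ h0
  have hss : IsSemisimpleModule (alg ρ) V := semisimple_alg hcardQ ρ
  by_cases hiso : ∃ U₀ : Submodule (alg ρ) V, IsSimpleModule (alg ρ) U₀ ∧
      isotypicComponent (alg ρ) V U₀ = ⊤
  · obtain ⟨U₀, hU₀, htop⟩ := hiso
    intro g
    rw [isotypic hk hk1 hQ hR α ρ hinj y₁ y₂ X₁ X₂ hX₁ hX₂ m₁ m₂ hm₁ hm₂ hXm₁ hXm₂ hr₁ hr₂ U₀ hU₀ htop hL g]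
  push Not at hiso
  intro g
  -- the identity on each component
  have hcomp : ∀ C ∈ isotypicComponents (alg ρ) V, ∀ v ∈ C,
      ρ (α (y₁ ^ p ^ (m₁ - 1)) (α (y₂ ^ p ^ (m₂ - 1)) g)) v =
      ρ (α (y₂ ^ p ^ (m₂ - 1)) (α (y₁ ^ p ^ (m₁ - 1)) g)) v := by
    rintro _ ⟨U₀, hU₀, rfl⟩ v hv
    obtain ⟨s₁, hs₁, hstab₁, hind₁⟩ := component_data ρ X₁ (α y₁) hX₁ m₁ hXm₁ hr₁ U₀ hU₀
    obtain ⟨s₂, hs₂, hstab₂, hind₂⟩ := component_data ρ X₂ (α y₂) hX₂ m₂ hXm₂ hr₂ U₀ hU₀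
    set C : Submodule K V := (isotypicComponent (alg ρ) V U₀).restrictScalars K with hC
    have hCtop : C ≠ ⊤ := by
      intro h
      apply hiso U₀ hU₀
      ext x
      have h2 : x ∈ C := by rw [h]; trivial
      exact ⟨fun _ => trivial, fun _ => h2⟩
    have hCρ : ∀ h, ∀ u ∈ C, ρ h u ∈ C := fun h u hu => rho_apply_mem _ h hu
    obtain ⟨ρC, hρC⟩ := Iso.exists_restrict ρ C hCρ
    -- the restricted operators
    have hop : ∀ (y : R) (X : (Module.End K V)ˣ) (hX : ∀ g, (X : Module.End K V) * ρ g = ρ (α y g) * X)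
        (m : ℕ) (hXm : X ^ p ^ m = 1) (hr : ((X : Module.End K V) - 1) ^ (p ^ m - 1) = 0) (s : ℕ) (hs : s < m)
        (hstab : ∀ v ∈ C, ((X : Module.End K V) ^ p ^ s) v ∈ C)
        (hind : ∀ v ∈ C, ∑ i ∈ Finset.range (p ^ s), ((X : Module.End K V) ^ i) v = 0 → v = 0),
        ∃ Y : (Module.End K C)ˣ, (∀ g, (Y : Module.End K C) * ρC g = ρC (α (y ^ p ^ s) g) * Y) ∧
          Y ^ p ^ (m - s) = 1 ∧ ((Y : Module.End K C) - 1) ^ (p ^ (m - s) - 1) = 0 := by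
      intro y X hX m hXm hr s hs hstab hind
      let Y₀ : Module.End K C := ((X : Module.End K V) ^ p ^ s).restrict hstab
      have hY₀ : ∀ u : C, ((Y₀ u : C) : V) = ((X : Module.End K V) ^ p ^ s) u := fun u => rfl
      have hXm' : (X : Module.End K V) ^ p ^ m = 1 := by
        rw [← Units.val_pow_eq_pow_val, hXm, Units.val_one]
      have hps : p ^ s * p ^ (m - s) = p ^ m := by rw [← pow_add, Nat.add_sub_cancel' hs.le]
      have hY₀pow : Y₀ ^ (p ^ (m - s)) = 1 := by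
        ext u
        rw [PLocal.HHBCoreAux.restrict_pow_apply C _ Y₀ hY₀, ← pow_mul, hps, hXm']
        rfl
      have hpm : p ^ (m - s) ≠ 0 := (pow_pos hp.out.pos _).ne'
      obtain ⟨Y, hYval⟩ : ∃ Y : (Module.End K C)ˣ, (Y : Module.End K C) = Y₀ :=
        IsUnit.of_pow_eq_one hY₀pow hpm
      refine ⟨Y, ?_, ?_, ?_⟩
      · intro h
        rw [hYval]
        ext u
        change ((X : Module.End K V) ^ p ^ s) ((ρC h u : C) : V) = ((ρC (α (y ^ p ^ s) h) (Y₀ u) : C) : V)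
        rw [hρC, hρC, hY₀, map_pow]
        exact LinearMap.congr_fun (Single.rho_pow hX (p ^ s) h) (u : V)
      · apply Units.ext
        rw [Units.val_pow_eq_pow_val, hYval, hY₀pow, Units.val_one]
      · rw [hYval]
        by_contra hne
        have h1 := PLocal.HHBCoreAux.le_of_pow_ne_zero (p := p) (X : Module.End K V) s C Y₀ hY₀ hind
          (p ^ m - 1) hr _ hne
        have h2 : 0 < p ^ (m - s) := pow_pos hp.out.pos _
        rw [Nat.sub_add_cancel h2, hps] at h1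
        have h3 : 0 < p ^ m := pow_pos hp.out.pos _
        omega
    obtain ⟨Y₁, hY₁, hYm₁, hYr₁⟩ := hop y₁ X₁ hX₁ m₁ hXm₁ hr₁ s₁ hs₁ hstab₁ hind₁
    obtain ⟨Y₂, hY₂, hYm₂, hYr₂⟩ := hop y₂ X₂ hX₂ m₂ hXm₂ hr₂ s₂ hs₂ hstab₂ hind₂
    have hlt : finrank K C < d := by
      rw [← hd]
      exact Submodule.finrank_lt hCtop
    have h := ihd _ hlt (Nat.card Q) C rfl Q hQ rfl R hR α ρC (y₁ ^ p ^ s₁) (y₂ ^ p ^ s₂) Y₁ Y₂ hY₁ hY₂
      (m₁ - s₁) (m₂ - s₂) (by omega) (by omega) hYm₁ hYm₂ hYr₁ hYr₂ g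
    have e₁ : (y₁ ^ p ^ s₁) ^ p ^ (m₁ - s₁ - 1) = y₁ ^ p ^ (m₁ - 1) := by
      rw [← pow_mul, ← pow_add]
      congr 2
      omega
    have e₂ : (y₂ ^ p ^ s₂) ^ p ^ (m₂ - s₂ - 1) = y₂ ^ p ^ (m₂ - 1) := by
      rw [← pow_mul, ← pow_add]
      congr 2
      omega
    rw [e₁, e₂] at h
    have h1 := congrArg Subtype.val (LinearMap.congr_fun h ⟨v, hv⟩)
    rw [hρC, hρC] at h1
    exact h1
  ext v
  have hv : v ∈ sSup (isotypicComponents (alg ρ) V) := by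
    rw [sSup_isotypicComponents]; trivial
  rw [sSup_eq_iSup'] at hv
  refine Submodule.iSup_induction (R := alg ρ) _ (motive := fun v =>
    ρ (α (y₁ ^ p ^ (m₁ - 1)) (α (y₂ ^ p ^ (m₂ - 1)) g)) v =
      ρ (α (y₂ ^ p ^ (m₂ - 1)) (α (y₁ ^ p ^ (m₁ - 1)) g)) v) hv ?_ ?_ ?_
  · rintro ⟨C, hC⟩ x hx
    exact hcomp C hC x hx
  · rw [map_zero, map_zero]
  · intro x y hx hy
    rw [map_add, map_add, hx, hy]

end Cfsg.Agent.H450.Star
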