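import Mathlib
import Cfsg.Agent.H450.Star
import Cfsg.Agent.H450.ExpDrop
import Cfsg.Agent.PLocal.HHBCore
import Cfsg.Agent.PLocal.HHBReduction

/-!
# Hall–Higman for Fermat primes: the exponent drops after two steps
-/

set_option autoImplicit false

namespace Cfsg.Agent.H450.TwoStep

open Subgroup Cfsg
open Cfsg.Agent.PLocal
open Cfsg.Agent.H450.StarMain

/-- the `p^(n-1)`-th powers of the elements of a Sylow `p`-subgroup commute. -/
theorem comm_powers {F : Type*} [Field F] {p k : ℕ} [hp : Fact p.Prime] [CharP F p]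
    (hk : 2 ^ k + 1 = p) (hk1 : 1 ≤ k) {V : Type*}
    [AddCommGroup V] [Module F V] [FiniteDimensional F V] (H : Subgroup (V ≃ₗ[F] V)) [Finite H]
    (hsol : IsPSolvable p H) (hOp : pCore p H = ⊥) (n : ℕ) (hn1 : 1 ≤ n)
    (hexp : ∀ x : H, (∃ j : ℕ, x ^ p ^ j = 1) → x ^ p ^ n = 1 ∧
      (((x : V ≃ₗ[F] V) : Module.End F V) - 1) ^ (p ^ n - 1) = 0)
    (S : Sylow p H) (x₁ x₂ : H) (hx₁ : x₁ ∈ (S : Subgroup H)) (hx₂ : x₂ ∈ (S : Subgroup H)) :
    Commute (x₁ ^ p ^ (n - 1)) (x₂ ^ p ^ (n - 1)) := by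
  classical
  have hp2 : p ≠ 2 := by
    intro h
    have h2 : 2 ^ 1 ≤ 2 ^ k := Nat.pow_le_pow_right (by norm_num) hk1
    omega
  set N : Subgroup H := pPrimeCore p H with hN
  have hNn : N.Normal := Lib.Cores.pPrimeCore_normal p
  have hNc : (Nat.card N).Coprime p := Lib.Cores.pPrimeCore_coprime p
  have hNp : ¬ p ∣ Nat.card N := fun h => by
    have := Nat.dvd_gcd h (dvd_refl p)
    rw [hNc] at this
    exact hp.out.one_lt.ne' (Nat.dvd_one.1 this)
  have hcent := HallHigmanPrime.centralizer_pPrimeCore_le_of_pSolvable p hsol hOp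
  have hSp : IsPGroup p (S : Subgroup H) := S.isPGroup'
  have hSexp : ∀ x ∈ (S : Subgroup H), x ^ p ^ n = 1 ∧
      (((x : V ≃ₗ[F] V) : Module.End F V) - 1) ^ (p ^ n - 1) = 0 := by
    intro x hx
    obtain ⟨j, hj⟩ := hSp ⟨x, hx⟩
    exact hexp x ⟨j, congrArg Subtype.val hj⟩
  -- base change
  let K := AlgebraicClosure F
  have hKp : CharP K p := charP_of_injective_algebraMap (algebraMap F K).injective p
  let φ : Module.End F V →ₐ[F] Module.End K (TensorProduct F K V) :=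
    Module.End.baseChangeHom F K V
  have hφ : Function.Injective φ := LinearMap.baseChangeHom_injective F V K
  let ρ₀ : (V ≃ₗ[F] V) →* Module.End K (TensorProduct F K V) :=
    (φ : Module.End F V →* Module.End K (TensorProduct F K V)).comp
      (LinearEquiv.automorphismGroup.toLinearMapMonoidHom (R := F) (M := V))
  have hρ₀ : Function.Injective ρ₀ := by
    intro a b hab
    have h1 := hφ hab
    exact LinearEquiv.toLinearMap_injective h1
  have hρ₀φ : ∀ x : V ≃ₗ[F] V, ρ₀ x = φ (x : Module.End F V) := fun x => rfl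
  -- the key statement
  set t := (x₂ ^ p ^ (n - 1) * x₁ ^ p ^ (n - 1))⁻¹ * (x₁ ^ p ^ (n - 1) * x₂ ^ p ^ (n - 1)) with ht
  have htS : t ∈ (S : Subgroup H) :=
    mul_mem (inv_mem (mul_mem (pow_mem hx₂ _) (pow_mem hx₁ _))) (mul_mem (pow_mem hx₁ _) (pow_mem hx₂ _))
  have hle : N ≤ centralizer {t} := by
    apply HHBReduction.le_of_forall_sylow_le
    intro q hq
    have hqf : Fact q.Prime := ⟨hq⟩
    obtain ⟨A, hA, hinv⟩ := Lib.PGroupCoprimeAction.exists_invariant_sylow hSp hNp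
      (fun b _ u hu => hNn.conj_mem u hu b) q
    refine ⟨A, hA, ?_⟩
    have hAq : IsPGroup q A := by
      obtain ⟨T, rfl⟩ := hA
      exact T.isPGroup'.map N.subtype
    by_cases hqp : q = p
    · subst hqp
      obtain ⟨T, rfl⟩ := hA
      have h1 : Nat.card ((T : Subgroup N).map N.subtype : Subgroup H) = 1 := by
        rw [← Nat.card_congr ((T : Subgroup N).equivMapOfInjective N.subtype
          N.subtype_injective).toEquiv, Sylow.card_eq_multiplicity T,
          Nat.factorization_eq_zero_of_not_dvd hNp, pow_zero]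
      rw [Subgroup.card_eq_one.1 h1]
      exact bot_le
    -- the action on `A`
    obtain ⟨α, hα⟩ := exists_restrict_hom ((MulAut.conj : H →* MulAut H).comp (S : Subgroup H).subtype) A
      (fun r g hg => hinv r r.2 g hg)
    have hα' : ∀ (r : (S : Subgroup H)) (g : A), ((α r g : A) : H) = r * g * (r : H)⁻¹ := fun r g => hα r g
    let ρ : A →* Module.End K (TensorProduct F K V) := ρ₀.comp (H.subtype.comp A.subtype)
    have hρ : Function.Injective ρ := hρ₀.comp (H.subtype_injective.comp A.subtype_injective)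
    let X : ↥(S : Subgroup H) → (Module.End K (TensorProduct F K V))ˣ := fun s =>
      ρ₀.toHomUnits ((s : H) : V ≃ₗ[F] V)
    have hXval : ∀ s, (X s : Module.End K (TensorProduct F K V)) = ρ₀ ((s : H) : V ≃ₗ[F] V) := fun s => rfl
    have hXρ : ∀ s g, (X s : Module.End K (TensorProduct F K V)) * ρ g = ρ (α s g) * X s := by
      intro s g
      rw [hXval]
      have h1 : (s : H) * (g : H) = ((α s g : A) : H) * s := by rw [hα']; group
      have h3 := congrArg (fun z : H => ρ₀ (z : V ≃ₗ[F] V)) h1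
      simp only [Subgroup.coe_mul, map_mul] at h3
      exact h3
    have hXn : ∀ s : (S : Subgroup H), X s ^ p ^ n = 1 := by
      intro s
      show (ρ₀.toHomUnits ((s : H) : V ≃ₗ[F] V)) ^ p ^ n = 1
      rw [← map_pow, ← Subgroup.coe_pow, (hSexp s s.2).1]
      exact map_one _
    have hXr : ∀ s : (S : Subgroup H),
        ((X s : Module.End K (TensorProduct F K V)) - 1) ^ (p ^ n - 1) = 0 := by
      intro s
      have h := congrArg φ (hSexp s s.2).2
      rw [map_pow, map_sub, map_one, map_zero] at h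
      exact h
    by_cases hq2 : q = 2
    · subst hq2
      have hstar := Star.starFor (K := K) (p := p) hk hk1 (Module.finrank K (TensorProduct F K V)) (Nat.card A)
        (TensorProduct F K V) rfl A hAq rfl (S : Subgroup H) hSp α ρ ⟨x₁, hx₁⟩ ⟨x₂, hx₂⟩ (X ⟨x₁, hx₁⟩)
        (X ⟨x₂, hx₂⟩) (hXρ _) (hXρ _) n n hn1 hn1 (hXn _) (hXn _) (hXr _) (hXr _)
      intro g hg
      rw [mem_centralizer_singleton_iff]
      have h1 := congrArg Subtype.val (hρ (hstar ⟨g, hg⟩))
      rw [hα', hα', hα', hα'] at h1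
      change x₁ ^ p ^ (n - 1) * (x₂ ^ p ^ (n - 1) * g * (x₂ ^ p ^ (n - 1))⁻¹) * (x₁ ^ p ^ (n - 1))⁻¹ =
        x₂ ^ p ^ (n - 1) * (x₁ ^ p ^ (n - 1) * g * (x₁ ^ p ^ (n - 1))⁻¹) * (x₂ ^ p ^ (n - 1))⁻¹ at h1
      generalize x₁ ^ p ^ (n - 1) = a at h1 ht
      generalize x₂ ^ p ^ (n - 1) = b at h1 ht
      have h2 : a * b * g = (b * a) * g * ((b * a)⁻¹ * (a * b)) := by
        have h3 : a * (b * g * b⁻¹) * a⁻¹ * (a * b) = b * (a * g * a⁻¹) * b⁻¹ * (a * b) := by rw [h1]
        have h4 : a * (b * g * b⁻¹) * a⁻¹ * (a * b) = a * b * g := by group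
        have h5 : b * (a * g * a⁻¹) * b⁻¹ * (a * b) = (b * a) * g * ((b * a)⁻¹ * (a * b)) := by group
        rw [← h4, h3, h5]
      rw [ht, mul_assoc (b * a)⁻¹, h2]
      group
    · -- odd `q`
      have hz : ∀ s : (S : Subgroup H), ∀ g : A, (α s ^ p ^ (n - 1)) g = g := by
        intro s
        by_contra hcon
        push Not at hcon
        have hσn : α s ^ p ^ n = 1 := by
          rw [← map_pow]
          have : s ^ p ^ n = 1 := Subtype.ext (hSexp s s.2).1
          rw [this, map_one]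
        rcases HHBCore.core hqp hAq ρ hρ (α s) (X s : Module.End K (TensorProduct F K V)) (hXρ s) n hn1
          (by rw [← Units.val_pow_eq_pow_val, hXn, Units.val_one]) hσn hcon (p ^ n - 1) (hXr s) with h | h
        · have : 0 < p ^ n := pow_pos hp.out.pos n
          omega
        · obtain ⟨n₀, m, h1, -, h3, h4, -⟩ := h
          have hpodd : Odd p := hp.out.odd_of_ne_two hp2
          have h5 : Even (p ^ n₀ - 1) := Nat.Odd.sub_odd hpodd.pow odd_one
          rw [h4, Nat.even_pow] at h5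
          exact hq2 ((Nat.Prime.even_iff hq).mp h5.1)
      have hz' : ∀ s ∈ (S : Subgroup H), ∀ g ∈ A, s ^ p ^ (n - 1) * g = g * s ^ p ^ (n - 1) := by
        intro s hs g hg
        have h1 := congrArg Subtype.val (hz ⟨s, hs⟩ ⟨g, hg⟩)
        rw [← map_pow, hα'] at h1
        change s ^ p ^ (n - 1) * g * (s ^ p ^ (n - 1))⁻¹ = g at h1
        exact mul_inv_eq_iff_eq_mul.1 h1
      intro g hg
      rw [mem_centralizer_singleton_iff]
      have h1 := hz' x₁ hx₁ g hg
      have h2 := hz' x₂ hx₂ g hg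
      have c1 : Commute (x₁ ^ p ^ (n - 1)) g := h1
      have c2 : Commute (x₂ ^ p ^ (n - 1)) g := h2
      exact (((c2.mul_left c1).inv_left).mul_left (c1.mul_left c2)).symm.eq
  have htN : t ∈ N := by
    apply hcent
    rw [mem_centralizer_iff]
    intro g hg
    exact (mem_centralizer_singleton_iff.1 (hle hg))
  have ht1 : t = 1 := by
    obtain ⟨j, hj⟩ := hSp ⟨t, htS⟩
    have h1 : orderOf t ∣ p ^ j := orderOf_dvd_of_pow_eq_one (congrArg Subtype.val hj)
    have h2 : orderOf t ∣ Nat.card N := by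
      have h1 := orderOf_dvd_natCard (⟨t, htN⟩ : N)
      rwa [Subgroup.orderOf_mk] at h1
    have h3 := Nat.dvd_gcd h2 h1
    rw [Nat.Coprime.gcd_eq_one (hNc.pow_right j)] at h3
    exact orderOf_eq_one_iff.1 (Nat.dvd_one.1 h3)
  rw [ht, inv_mul_eq_one] at ht1
  exact ht1.symm

universe u

/-- if the `p^(n-1)`-th powers of the elements of each Sylow `p`-subgroup commute then they lie in `O_p`. -/
theorem pow_mem_of_comm {G : Type u} [Group G] [Finite G] {p : ℕ} [hp : Fact p.Prime] (hp3 : 3 ≤ p)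
    (hsol : IsPSolvable p G) (hO : pPrimeCore p G = ⊥) (N : ℕ)
    (hexp : ∀ x : G, ∀ j : ℕ, x ^ p ^ j = 1 → x ^ p ^ (N + 1) = 1)
    (hcomm : ∀ (S : Sylow p G), ∀ x₁ ∈ (S : Subgroup G), ∀ x₂ ∈ (S : Subgroup G),
      Commute (x₁ ^ p ^ N) (x₂ ^ p ^ N))
    (x : G) (j : ℕ) (hx : x ^ p ^ j = 1) : x ^ p ^ N ∈ pCore p G := by
  have hPn : (pCore p G).Normal := Lib.Cores.pCore_normal p
  obtain ⟨V, _, _, _, φ, π, hπ, hφ, hker⟩ := FratMod.exists_module hsol hO
  have hPp : IsPGroup p (pCore p G) := Lib.Cores.pCore_isPGroup p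
  by_contra hcon
  have hxN := hexp x j hx
  have hord : orderOf (φ x) = p ^ (N + 1) := by
    refine orderOf_eq_prime_pow ?_ ?_
    · rw [← map_pow]
      intro h
      apply hcon
      rw [← hker]
      exact MonoidHom.mem_ker.mpr h
    · rw [← map_pow, hxN, map_one]
  have hpN : 0 < p ^ N := pow_pos hp.out.pos N
  have hfr : Finite φ.range := Finite.of_surjective _ φ.rangeRestrict_surjective
  have hne : ((φ x : Module.End (ZMod p) V) - 1) ^ (2 * p ^ N - 1) ≠ 0 := by
    intro hs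
    have h3 : 3 * p ^ N ≤ p ^ (N + 1) := by
      rw [pow_succ, mul_comm]
      exact Nat.mul_le_mul_left _ hp3
    rcases S0633.bound (H := φ.range) (Lib.PSolvable.IsPSolvable_of_surjective p hsol φ.rangeRestrict
        φ.rangeRestrict_surjective) (ExpDrop.pCore_range_eq_bot φ hker) (φ x) ⟨x, rfl⟩ (N + 1) (by omega) hord
        _ hs with h | ⟨n₀, q, m, h1, h2, -, -, -, -, h7⟩
    · omega
    · rw [Nat.mul_sub, mul_one, ← pow_add, Nat.sub_add_cancel h2] at h7
      have h8 : p ^ (N + 1 - n₀) ≤ p ^ N := Nat.pow_le_pow_right hp.out.pos (by omega)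
      omega
  obtain ⟨w, hw⟩ : ∃ w, (((φ x : Module.End (ZMod p) V) - 1) ^ (2 * p ^ N - 1)) w ≠ 0 := by
    by_contra hc
    push Not at hc
    exact hne (LinearMap.ext hc)
  obtain ⟨u, hu⟩ := hπ (Multiplicative.ofAdd w)
  obtain ⟨n, hn, hn2⟩ := ExpDrop.norm_formula (pCore p G) φ π hφ x u (p ^ N)
  -- a Sylow subgroup containing `x` and `O_p`
  have hZ : IsPGroup p (zpowers x) := by
    rintro ⟨y, i, rfl⟩
    refine ⟨j, Subtype.ext ?_⟩
    show (x ^ i) ^ p ^ j = 1
    rw [← zpow_natCast, ← zpow_mul, mul_comm, zpow_mul, zpow_natCast, hx, one_zpow]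
  obtain ⟨S, hS⟩ := (hPp.to_sup_of_normal_left hZ).exists_le_sylow
  have hxS : x ∈ (S : Subgroup G) := hS (le_sup_right (a := pCore p G) (mem_zpowers x))
  have huS : (u : G) ∈ (S : Subgroup G) := hS (le_sup_left (a := pCore p G) u.2)
  have h1 := hcomm S _ (mul_mem huS hxS) x hxS
  rw [hn] at h1
  have h2 : x ^ p ^ N * (n : G) * (x ^ p ^ N)⁻¹ = n := by
    have h3 := h1.eq
    rw [mul_assoc] at h3
    have h4 : (n : G) * (x ^ p ^ N * x ^ p ^ N) = x ^ p ^ N * n * x ^ p ^ N := by rw [h3]; group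
    rw [← mul_assoc] at h4
    have h5 := mul_right_cancel h4
    rw [← h5, mul_inv_cancel_right]
  have hmem : x ^ p ^ N * (n : G) * (x ^ p ^ N)⁻¹ ∈ pCore p G := by rw [h2]; exact n.2
  have h3 := hφ (x ^ p ^ N) n hmem
  have h4 : (⟨x ^ p ^ N * (n : G) * (x ^ p ^ N)⁻¹, hmem⟩ : pCore p G) = n := Subtype.ext h2
  rw [h4] at h3
  apply hw
  have h5 : ∀ i : ℕ, ∀ v : V, ((φ x) ^ i) v = ((φ x : Module.End (ZMod p) V) ^ i) v := by
    intro i
    induction i with
    | zero => intro v; rfl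
    | succ i ih =>
      intro v
      rw [pow_succ, pow_succ]
      exact ih (φ x v)
  rw [map_pow, h5] at h3
  have h6 : ((φ x : Module.End (ZMod p) V) - 1) ^ (p ^ N) = (φ x : Module.End (ZMod p) V) ^ (p ^ N) - 1 := by
    have h3 := congrArg (Polynomial.aeval (φ x : Module.End (ZMod p) V))
      (sub_pow_char_pow (R := Polynomial (ZMod p)) (p := p) (n := N) (Polynomial.X) 1)
    simpa using h3
  have h7 : 2 * p ^ N - 1 = p ^ N + (p ^ N - 1) := by omega
  have hw' : w = (π u).toAdd := by rw [hu]; rfl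
  rw [h7, pow_add, Module.End.mul_apply, ← PLocal.HHBUnip.geom_eq (ZMod p) p, hw', ← hn2, h6,
    LinearMap.sub_apply, Module.End.one_apply, ← h3, sub_self]

/-- **The exponent drops after `O_{p,p',p}`.** -/
theorem drop {G : Type u} [Group G] [Finite G] {p k : ℕ} [hp : Fact p.Prime] (hk : 2 ^ k + 1 = p)
    (hk1 : 1 ≤ k) (hsol : IsPSolvable p G) (hO : pPrimeCore p G = ⊥) (N : ℕ)
    (hexp : ∀ x : G, ∀ j : ℕ, x ^ p ^ j = 1 → x ^ p ^ (N + 1) = 1)
    {G₁ : Type u} [Group G₁] [Finite G₁] (f : G →* G₁) (hf : Function.Surjective f) (hle : pCore p G ≤ f.ker)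
    (hO₁ : pPrimeCore p G₁ = ⊥) (x : G₁) (j : ℕ) (hx : x ^ p ^ j = 1) : x ^ p ^ N ∈ pCore p G₁ := by
  have hp3 : 3 ≤ p := by
    have h2 : 2 ^ 1 ≤ 2 ^ k := Nat.pow_le_pow_right (by norm_num) hk1
    omega
  have hPn : (pCore p G).Normal := Lib.Cores.pCore_normal p
  have hPp : IsPGroup p (pCore p G) := Lib.Cores.pCore_isPGroup p
  refine pow_mem_of_comm hp3 (Lib.PSolvable.IsPSolvable_of_surjective p hsol f hf) hO₁ N
    (ExpDrop.exp_of_surjective f hf hexp) ?_ x j hx
  intro S₁ x₁ hx₁ x₂ hx₂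
  obtain ⟨S, rfl⟩ := Sylow.mapSurjective_surjective hf p S₁
  obtain ⟨y₁, hy₁, rfl⟩ := hx₁
  obtain ⟨y₂, hy₂, rfl⟩ := hx₂
  obtain ⟨V, _, _, _, φ, π, hπ, hφ, hker⟩ := FratMod.exists_module hsol hO
  have hfr : Finite φ.range := Finite.of_surjective _ φ.rangeRestrict_surjective
  have h1 := comm_powers (F := ZMod p) hk hk1 φ.range
    (Lib.PSolvable.IsPSolvable_of_surjective p hsol φ.rangeRestrict φ.rangeRestrict_surjective)
    (ExpDrop.pCore_range_eq_bot φ hker) (N + 1) (by omega) (by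
      rintro y ⟨i, hi⟩
      obtain ⟨g, rfl, s, hs⟩ := ExpDrop.exists_lift φ.rangeRestrict φ.rangeRestrict_surjective hi
      have hgN := hexp g s hs
      refine ⟨by rw [← map_pow, hgN, map_one], ?_⟩
      exact ExpDrop.sum_eq_zero (pCore p G) φ π hπ hφ g (N + 1) (fun u => by
        obtain ⟨s, hs⟩ := ExpDrop.pElt_mul _ hPp hgN u
        exact hexp _ s hs))
    (S.mapSurjective φ.rangeRestrict_surjective) (φ.rangeRestrict y₁) (φ.rangeRestrict y₂) ⟨y₁, hy₁, rfl⟩
    ⟨y₂, hy₂, rfl⟩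
  rw [Nat.add_sub_cancel, ← map_pow, ← map_pow] at h1
  show Commute ((f y₁) ^ p ^ N) ((f y₂) ^ p ^ N)
  rw [← map_pow, ← map_pow]
  have h2 : (y₁ ^ p ^ N) * (y₂ ^ p ^ N) * (y₁ ^ p ^ N)⁻¹ * (y₂ ^ p ^ N)⁻¹ ∈ pCore p G := by
    rw [← hker, MonoidHom.mem_ker]
    have h3 := congrArg Subtype.val h1.eq
    change φ (y₁ ^ p ^ N) * φ (y₂ ^ p ^ N) = φ (y₂ ^ p ^ N) * φ (y₁ ^ p ^ N) at h3
    rw [map_mul, map_mul, map_mul, map_inv, map_inv, h3]
    group
  have h3 := hle h2
  rw [MonoidHom.mem_ker, map_mul, map_mul, map_mul, map_inv, map_inv, mul_inv_eq_one, mul_inv_eq_iff_eq_mul] at h3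
  exact h3

/-- **`l_p ≤ 2 e_p`** for `p = 2^k + 1`. -/
theorem pLengthLE_two_mul {p k : ℕ} [hp : Fact p.Prime] (hk : 2 ^ k + 1 = p) (hk1 : 1 ≤ k) (N : ℕ) :
    ∀ (G : Type u) [Group G] [Finite G] (_ : IsPSolvable p G)
      (_ : ∀ x : G, ∀ j : ℕ, x ^ p ^ j = 1 → x ^ p ^ N = 1), PLengthLE p (2 * N) G := by
  induction N with
  | zero =>
    intro G _ _ _ hexp
    exact ExpDrop.pLengthLE_zero_of_exp hexp
  | succ N ih =>
    intro G _ _ hsol hexp
    have hn1 : (pPrimeCore p G).Normal := Lib.Cores.pPrimeCore_normal p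
    refine ExpDrop.pLengthLE_of_quotient_pPrimeCore hn1 ?_
    have main : ∀ (G₁ : Type u) [Group G₁] [Finite G₁] (f : G →* G₁) (hf : Function.Surjective f)
        (hO : pPrimeCore p G₁ = ⊥), PLengthLE p (2 * (N + 1)) G₁ := by
      intro G₁ _ _ f hf hO
      have hsol1 : IsPSolvable p G₁ := Lib.PSolvable.IsPSolvable_of_surjective p hsol f hf
      have hexp1 := ExpDrop.exp_of_surjective f hf hexp
      have hn2 : (pCore p G₁).Normal := Lib.Cores.pCore_normal p
      have h22 : 2 * (N + 1) = (2 * N + 1) + 1 := by ring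
      rw [h22]
      refine ExpDrop.pLengthLE_succ_of_quotient_pCore hn2 ?_
      have hn3 : (pPrimeCore p (G₁ ⧸ pCore p G₁)).Normal := Lib.Cores.pPrimeCore_normal p
      refine ExpDrop.pLengthLE_of_quotient_pPrimeCore hn3 ?_
      let f2 : G₁ →* (G₁ ⧸ pCore p G₁) ⧸ pPrimeCore p (G₁ ⧸ pCore p G₁) :=
        (QuotientGroup.mk' _).comp (QuotientGroup.mk' (pCore p G₁))
      have hf2 : Function.Surjective f2 :=
        (QuotientGroup.mk'_surjective _).comp (QuotientGroup.mk'_surjective _)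
      have hle : pCore p G₁ ≤ f2.ker := by
        intro g hg
        rw [MonoidHom.mem_ker]
        show QuotientGroup.mk' _ (QuotientGroup.mk' (pCore p G₁) g) = 1
        rw [(QuotientGroup.eq_one_iff g).mpr hg |> (show QuotientGroup.mk' (pCore p G₁) g = 1 from ·), map_one]
      have hdrop := drop hk hk1 hsol1 hO N hexp1 f2 hf2 hle (Lib.Cores.pPrimeCore_quotient_pPrimeCore p)
      have hsol2 := Lib.PSolvable.IsPSolvable_of_surjective p hsol1 f2 hf2
      have hn4 : (pCore p ((G₁ ⧸ pCore p G₁) ⧸ pPrimeCore p (G₁ ⧸ pCore p G₁))).Normal :=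
        Lib.Cores.pCore_normal p
      refine ExpDrop.pLengthLE_succ_of_quotient_pCore hn4 ?_
      refine ih _ (Lib.PSolvable.IsPSolvable_of_surjective p hsol2 (QuotientGroup.mk' _)
        (QuotientGroup.mk'_surjective _)) ?_
      intro x j hx
      obtain ⟨y, rfl, s, hs⟩ := ExpDrop.exists_lift (QuotientGroup.mk' _) (QuotientGroup.mk'_surjective _) hx
      rw [← map_pow]
      exact (QuotientGroup.eq_one_iff _).mpr (hdrop y s hs)
    exact main _ (QuotientGroup.mk' (pPrimeCore p G)) (QuotientGroup.mk'_surjective _)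
      (Lib.Cores.pPrimeCore_quotient_pPrimeCore p)

end Cfsg.Agent.H450.TwoStep
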