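import Mathlib
import Cfsg.Prelude.Def_LocalEven
import Cfsg.Agent.Lib.Involves
import Cfsg.Agent.OddOrderLocal.PLengthSub

/-!
# Recognition of the wreath product `C_p ≀ C_p` as a quotient
-/

set_option autoImplicit false

namespace Cfsg.Agent.H450.Wreath

open Subgroup

universe u

/-- the data of `C_p ≀ C_p` used in S3787 -/
def WrData (p : ℕ) (W : Type*) [Group W] : Prop :=
  ∃ (B : Subgroup W) (t : W), B.Normal ∧ IsMulCommutative B ∧ (∀ b ∈ B, b ^ p = 1) ∧
    Nat.card B = p ^ p ∧ orderOf t = p ∧ t ∉ B ∧ Nat.card W = p ^ (p + 1) ∧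
    Nat.card ↥(B ⊓ Subgroup.centralizer ({t} : Set W)) = p

theorem WrData.congr {p : ℕ} {W W' : Type*} [Group W] [Group W'] (e : W ≃* W') (h : WrData p W) :
    WrData p W' := by
  obtain ⟨B, t, h1, h2, h3, h4, h5, h6, h7, h8⟩ := h
  refine ⟨B.map e.toMonoidHom, e t, h1.map _ e.surjective, inferInstance, ?_, ?_, ?_, ?_, ?_, ?_⟩
  · rintro _ ⟨b, hb, rfl⟩
    rw [← map_pow, h3 b hb, map_one]
  · rw [Subgroup.card_map_of_injective e.injective, h4]
  · rw [MulEquiv.orderOf_eq, h5]
  · rintro ⟨b, hb, hbt⟩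
    have : b = t := e.injective hbt
    exact h6 (this ▸ hb)
  · rw [← Nat.card_congr e.toEquiv, h7]
  · have : B.map e.toMonoidHom ⊓ centralizer ({e t} : Set W') =
        (B ⊓ centralizer ({t} : Set W)).map e.toMonoidHom := by
      ext y
      constructor
      · rintro ⟨⟨b, hb, rfl⟩, hc⟩
        have hc' : e b ∈ centralizer ({e t} : Set W') := hc
        rw [mem_centralizer_singleton_iff, ← map_mul, ← map_mul] at hc'
        exact ⟨b, ⟨hb, mem_centralizer_singleton_iff.mpr (e.injective hc')⟩, rfl⟩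
      · rintro ⟨b, ⟨hb, hc⟩, rfl⟩
        have hc' : b ∈ centralizer ({t} : Set W) := hc
        rw [mem_centralizer_singleton_iff] at hc'
        refine ⟨⟨b, hb, rfl⟩, mem_centralizer_singleton_iff.mpr ?_⟩
        show e b * e t = e t * e b
        rw [← map_mul, ← map_mul, hc']
    rw [this, Subgroup.card_map_of_injective e.injective, h8]

/-- every finite group is isomorphic to a group in `Type` -/
theorem exists_type (W : Type u) [Group W] [Finite W] :
    ∃ (W' : Type) (_ : Group W') (_ : Finite W'), Nonempty (W ≃* W') := by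
  have : Small.{0} W := Countable.toSmall W
  exact ⟨Shrink.{0} W, inferInstance, inferInstance, ⟨(Shrink.mulEquiv (α := W)).symm⟩⟩

/-- the regular unipotent action: `(A f) j = f j + f (j + 1)`, `f p = 0`. -/
def A (p : ℕ) (f : Fin p → ZMod p) : Fin p → ZMod p :=
  fun j => f j + if h : (j : ℕ) + 1 < p then f ⟨j + 1, h⟩ else 0

theorem A_eq_self {p : ℕ} [hp : Fact p.Prime] (f : Fin p → ZMod p) :
    A p f = f ↔ ∀ j : Fin p, j ≠ ⟨0, hp.out.pos⟩ → f j = 0 := by
  constructor
  · intro h j hj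
    obtain ⟨j, hjp⟩ := j
    cases j with
    | zero => exact absurd rfl hj
    | succ i =>
      have h1 := congrFun h ⟨i, by omega⟩
      simp only [A, hjp, dif_pos] at h1
      simpa using h1
  · intro h
    funext j
    simp only [A]
    split_ifs with h1
    · rw [h ⟨j + 1, h1⟩ (fun h2 => absurd (congrArg Fin.val h2) (Nat.succ_ne_zero _)), add_zero]
    · rw [add_zero]

theorem exists_wreath {Γ : Type u} [Group Γ] [Finite Γ] {p : ℕ} [hp : Fact p.Prime] (P' : Subgroup Γ)
    [hn : P'.Normal] (θ : P' →* Multiplicative (Fin p → ZMod p)) (hθ : Function.Surjective θ) (t : Γ)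
    (htop : P' ⊔ zpowers t = ⊤) (ht : t ∉ P') (htp : t ^ p ∈ P') (htp' : θ ⟨t ^ p, htp⟩ = 1)
    (hA : ∀ (u : P') (h : t * u * t⁻¹ ∈ P'), (θ ⟨t * u * t⁻¹, h⟩).toAdd = A p (θ u).toAdd) :
    ∃ (N : Subgroup Γ) (_ : N.Normal), WrData p (Γ ⧸ N) := by
  classical
  let N : Subgroup Γ := θ.ker.map P'.subtype
  have hmemN : ∀ u : P', (u : Γ) ∈ N ↔ θ u = 1 := by
    intro u
    constructor
    · rintro ⟨v, hv, hvu⟩
      have : v = u := Subtype.ext hvu
      rw [← this]; exact hv
    · intro h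
      exact ⟨u, h, rfl⟩
  have hNP : N ≤ P' := map_subtype_le _
  have htN : ∀ n ∈ N, t * n * t⁻¹ ∈ N := by
    intro n hn'
    have h1 : t * n * t⁻¹ ∈ P' := hn.conj_mem n (hNP hn') t
    refine (hmemN ⟨_, h1⟩).mpr ?_
    have h2 := hA ⟨n, hNP hn'⟩ h1
    have h3 : θ ⟨n, hNP hn'⟩ = 1 := (hmemN _).mp hn'
    rw [h3] at h2
    apply Multiplicative.toAdd.injective
    rw [h2]
    funext j
    simp [A]
  have hNn : N.Normal := by
    -- the normalizer contains `P'` and `t`
    rw [← normalizer_eq_top_iff, eq_top_iff, ← htop, sup_le_iff]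
    constructor
    · intro g hg
      refine Subgroup.mem_normalizer_fintype ?_
      intro n hn'
      have h1 : g * n * g⁻¹ ∈ P' := hn.conj_mem n (hNP hn') g
      refine (hmemN ⟨_, h1⟩).mpr ?_
      have h3 : θ ⟨n, hNP hn'⟩ = 1 := (hmemN _).mp hn'
      have h4 : (⟨g * n * g⁻¹, h1⟩ : P') = ⟨g, hg⟩ * ⟨n, hNP hn'⟩ * ⟨g, hg⟩⁻¹ := rfl
      rw [h4, map_mul, map_mul, h3, mul_one, map_inv, mul_inv_cancel]
    · rw [zpowers_le]
      exact Subgroup.mem_normalizer_fintype htN
  have hπ : ∀ x y : Γ, QuotientGroup.mk' N x = QuotientGroup.mk' N y ↔ x * y⁻¹ ∈ N := by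
    intro x y
    rw [← mul_inv_eq_one, ← map_inv, ← map_mul]
    exact QuotientGroup.eq_one_iff _
  have hπ1 : ∀ x : Γ, QuotientGroup.mk' N x = 1 ↔ x ∈ N := fun x => QuotientGroup.eq_one_iff _
  have hπP : ∀ x y : P', QuotientGroup.mk' N (x : Γ) = QuotientGroup.mk' N (y : Γ) ↔ θ x = θ y := by
    intro x y
    rw [hπ, ← Subgroup.coe_inv, ← Subgroup.coe_mul, hmemN, map_mul, map_inv, mul_inv_eq_one]
  have hcardB : Nat.card (P'.map (QuotientGroup.mk' N)) = p ^ p := by
    rw [OddOrderLocal.PLengthSub.card_map_mk']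
    have h1 : N.relIndex P' = θ.ker.index := by
      have h2 : N.subgroupOf P' = θ.ker := by
        ext u
        rw [mem_subgroupOf, hmemN]
        exact Iff.rfl
      rw [relIndex, h2]
    rw [h1, Subgroup.index_ker, MonoidHom.range_eq_top.mpr hθ, Subgroup.card_top]
    show Nat.card (Fin p → ZMod p) = p ^ p
    rw [Nat.card_fun, Nat.card_fin, Nat.card_zmod]
  have hidx : P'.index = p := by
    have h1 : (⊤ : Subgroup (Γ ⧸ P')) = zpowers (QuotientGroup.mk' P' t) := by
      rw [← MonoidHom.map_zpowers, ← Subgroup.map_top_of_surjective _ (QuotientGroup.mk'_surjective P'),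
        ← htop, Subgroup.map_sup]
      have h2 : P'.map (QuotientGroup.mk' P') = ⊥ := by
        rw [Subgroup.map_eq_bot_iff, QuotientGroup.ker_mk']
      rw [h2, bot_sup_eq]
    rw [Subgroup.index, ← Subgroup.card_top, h1, Nat.card_zpowers]
    refine orderOf_eq_prime ?_ ?_
    · rw [← map_pow]
      exact (QuotientGroup.eq_one_iff _).mpr htp
    · intro h
      exact ht ((QuotientGroup.eq_one_iff _).mp h)
  refine ⟨N, hNn, P'.map (QuotientGroup.mk' N), QuotientGroup.mk' N t,
    hn.map _ (QuotientGroup.mk'_surjective N), ?_, ?_, hcardB, ?_, ?_, ?_, ?_⟩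
  · refine ⟨⟨?_⟩⟩
    rintro ⟨_, u, hu, rfl⟩ ⟨_, v, hv, rfl⟩
    apply Subtype.ext
    show QuotientGroup.mk' N u * QuotientGroup.mk' N v = QuotientGroup.mk' N v * QuotientGroup.mk' N u
    rw [← map_mul, ← map_mul]
    refine (hπP (⟨u, hu⟩ * ⟨v, hv⟩) (⟨v, hv⟩ * ⟨u, hu⟩)).mpr ?_
    rw [map_mul, map_mul, mul_comm]
  · rintro _ ⟨u, hu, rfl⟩
    rw [← map_pow, hπ1]
    refine (hmemN (⟨u, hu⟩ ^ p)).mpr ?_
    rw [map_pow]
    apply Multiplicative.toAdd.injective
    rw [toAdd_pow, toAdd_one]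
    funext j
    simp
  · refine orderOf_eq_prime ?_ ?_
    · rw [← map_pow, hπ1]
      exact (hmemN ⟨t ^ p, htp⟩).mpr htp'
    · intro h
      exact ht (hNP ((hπ1 t).mp h))
  · rintro ⟨u, hu, hut⟩
    apply ht
    have h1 := hNP ((hπ u t).mp hut)
    have h2 : t⁻¹ = u⁻¹ * (u * t⁻¹) := by group
    rw [← P'.inv_mem_iff, h2]
    exact P'.mul_mem (P'.inv_mem hu) h1
  · have h1 := Subgroup.relIndex_mul_index hNP
    rw [← OddOrderLocal.PLengthSub.card_map_mk', hcardB, hidx] at h1
    rw [← Subgroup.index_eq_card, ← h1, pow_succ]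
  · -- the centralizer of `t` in `B`
    have hz : ∀ a : ZMod p, ∃ u : P', (θ u).toAdd = Pi.single ⟨0, hp.out.pos⟩ a := by
      intro a
      obtain ⟨u, hu⟩ := hθ (Multiplicative.ofAdd (Pi.single ⟨0, hp.out.pos⟩ a))
      exact ⟨u, by rw [hu]; rfl⟩
    choose w hw using hz
    have hcomm : ∀ u : P', QuotientGroup.mk' N (u : Γ) ∈ centralizer ({QuotientGroup.mk' N t} : Set (Γ ⧸ N)) ↔
        A p (θ u).toAdd = (θ u).toAdd := by
      intro u
      have h1 : t * u * t⁻¹ ∈ P' := hn.conj_mem u u.2 t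
      rw [mem_centralizer_singleton_iff, ← hA u h1]
      constructor
      · intro h
        congr 1
        refine (hπP ⟨t * u * t⁻¹, h1⟩ u).mp ?_
        show QuotientGroup.mk' N (t * u * t⁻¹) = QuotientGroup.mk' N (u : Γ)
        rw [map_mul, map_mul, map_inv, ← h, mul_inv_cancel_right]
      · intro h
        have h2 := (hπP ⟨t * u * t⁻¹, h1⟩ u).mpr (Multiplicative.toAdd.injective h)
        have h3 : QuotientGroup.mk' N (t * u * t⁻¹) = QuotientGroup.mk' N (u : Γ) := h2
        rw [map_mul, map_mul, map_inv, mul_inv_eq_iff_eq_mul] at h3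
        exact h3.symm
    let g : ZMod p → ↥(P'.map (QuotientGroup.mk' N) ⊓ centralizer ({QuotientGroup.mk' N t} : Set (Γ ⧸ N))) :=
      fun a => ⟨QuotientGroup.mk' N (w a : Γ), Subgroup.mem_inf.mpr ⟨⟨(w a : Γ), (w a).2, rfl⟩, by
        rw [hcomm, hw, A_eq_self]
        intro j hj
        rw [Pi.single_eq_of_ne hj]⟩⟩
    have hg : Function.Bijective g := by
      constructor
      · intro a b hab
        have h1 : QuotientGroup.mk' N (w a : Γ) = QuotientGroup.mk' N (w b : Γ) := congrArg Subtype.val hab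
        rw [hπP] at h1
        have h2 := congrArg Multiplicative.toAdd h1
        rw [hw, hw] at h2
        have h3 := congrFun h2 ⟨0, hp.out.pos⟩
        rwa [Pi.single_eq_same, Pi.single_eq_same] at h3
      · rintro ⟨_, ⟨u, hu, rfl⟩, hc⟩
        refine ⟨(θ ⟨u, hu⟩).toAdd ⟨0, hp.out.pos⟩, Subtype.ext ?_⟩
        show QuotientGroup.mk' N (w _ : Γ) = QuotientGroup.mk' N u
        refine (hπP (w _) ⟨u, hu⟩).mpr ?_
        apply Multiplicative.toAdd.injective
        rw [hw]
        have h1 := (hcomm ⟨u, hu⟩).mp hc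
        rw [A_eq_self] at h1
        funext j
        by_cases hj : j = ⟨0, hp.out.pos⟩
        · subst hj
          rw [Pi.single_eq_same]
        · rw [Pi.single_eq_of_ne hj, h1 j hj]
    rw [← Nat.card_congr (Equiv.ofBijective g hg), Nat.card_zmod]

end Cfsg.Agent.H450.Wreath
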