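import Mathlib
import Cfsg.Agent.H450.Wreath
import Cfsg.Agent.H450.ExpDrop

/-!
# A section `C_p ≀ C_p` in a `p`-solvable group with `O_{p'} = 1` and Sylow subgroup not normal
-/

set_option autoImplicit false

namespace Cfsg.Agent.H450.WreathSection

open Subgroup Wreath Cfsg

universe u

section linear

variable {p : ℕ} [hp : Fact p.Prime] {V : Type*} [AddCommGroup V] [Module (ZMod p) V]

/-- coordinates with respect to a cyclic vector -/
def Psi (ν : Module.End (ZMod p) V) (l : V →ₗ[ZMod p] ZMod p) : V →ₗ[ZMod p] (Fin p → ZMod p) :=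
  LinearMap.pi fun j => l ∘ₗ (ν ^ (j : ℕ))

theorem Psi_apply (ν : Module.End (ZMod p) V) (l : V →ₗ[ZMod p] ZMod p) (w : V) (j : Fin p) :
    Psi ν l w j = l ((ν ^ (j : ℕ)) w) := rfl

theorem Psi_surjective (ν : Module.End (ZMod p) V) (l : V →ₗ[ZMod p] ZMod p) (hν : ν ^ p = 0) (v : V)
    (hv : l ((ν ^ (p - 1)) v) ≠ 0) : Function.Surjective (Psi ν l) := by
  rw [← LinearMap.range_eq_top]
  by_contra hne
  obtain ⟨f, hf, hle⟩ := Submodule.exists_le_ker_of_lt_top _ (lt_top_iff_ne_top.mpr hne)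
  let c : Fin p → ZMod p := fun j => f (Pi.single j 1)
  have hfc : ∀ g : Fin p → ZMod p, f g = ∑ j, g j * c j := by
    intro g
    have h1 : g = ∑ j, g j • (Pi.single j (1 : ZMod p) : Fin p → ZMod p) := by
      funext i
      rw [Finset.sum_apply, Finset.sum_eq_single i]
      · simp
      · intro b _ hb
        simp [hb.symm]
      · intro h; exact absurd (Finset.mem_univ _) h
    conv_lhs => rw [h1]
    rw [map_sum]
    refine Finset.sum_congr rfl fun j _ => ?_
    rw [map_smul, smul_eq_mul]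
  have hcne : ∃ j, c j ≠ 0 := by
    by_contra hcon
    push Not at hcon
    apply hf
    ext g
    simp only [LinearMap.comp_apply, LinearMap.zero_apply]
    rw [hfc]
    exact Finset.sum_eq_zero fun j _ => by rw [hcon j, mul_zero]
  obtain ⟨j₀, hj₀, hmin⟩ := WellFounded.has_min (wellFounded_lt (α := Fin p)) {j | c j ≠ 0} hcne
  have h2 : f (Psi ν l ((ν ^ (p - 1 - (j₀ : ℕ))) v)) = 0 := hle ⟨_, rfl⟩
  rw [hfc, Finset.sum_eq_single j₀] at h2
  · rw [Psi_apply, ← Module.End.mul_apply, ← pow_add] at h2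
    have h3 : (j₀ : ℕ) + (p - 1 - j₀) = p - 1 := by
      have := j₀.2
      omega
    rw [h3] at h2
    rcases mul_eq_zero.mp h2 with h | h
    · exact hv h
    · exact hj₀ h
  · intro j _ hj
    rcases lt_or_gt_of_ne hj with h | h
    · have : c j = 0 := by
        by_contra hc
        exact hmin j hc h
      rw [this, mul_zero]
    · rw [Psi_apply, ← Module.End.mul_apply, ← pow_add]
      have h3 : (j : ℕ) + (p - 1 - j₀) = p + (j + (p - 1 - j₀) - p) := by
        have := j₀.2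
        have h4 : (j₀ : ℕ) < j := h
        omega
      rw [h3, pow_add, hν, zero_mul, LinearMap.zero_apply, map_zero, zero_mul]
  · intro h; exact absurd (Finset.mem_univ _) h

theorem Psi_one_add (ν : Module.End (ZMod p) V) (l : V →ₗ[ZMod p] ZMod p) (hν : ν ^ p = 0) (w : V) :
    Psi ν l (w + ν w) = A p (Psi ν l w) := by
  funext j
  rw [Psi_apply, map_add, map_add, ← Module.End.mul_apply, ← pow_succ]
  show _ = Psi ν l w j + _
  rw [Psi_apply]
  congr 1
  split_ifs with h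
  · rfl
  · have : (j : ℕ) + 1 = p := by
      have := j.2
      omega
    rw [this, hν, LinearMap.zero_apply, map_zero]

end linear

/-- a section `C_p ≀ C_p` -/
theorem exists_section {G : Type u} [Group G] [Finite G] {p : ℕ} [hp : Fact p.Prime] (hp2 : p ≠ 2)
    (hnf : ¬ ∃ k : ℕ, p = 2 ^ k + 1) (hsol : IsPSolvable p G) (hO : pPrimeCore p G = ⊥)
    (hdvd : p ∣ (pCore p G).index) :
    ∃ T₀ : Subgroup G, IsPGroup p T₀ ∧ ∃ (N : Subgroup T₀) (_ : N.Normal), WrData p (T₀ ⧸ N) := by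
  classical
  have hPn : (pCore p G).Normal := Lib.Cores.pCore_normal p
  have hPp : IsPGroup p (pCore p G) := Lib.Cores.pCore_isPGroup p
  obtain ⟨V, _, _, _, φ, π, hπ, hφ, hker⟩ := FratMod.exists_module hsol hO
  -- a `p`-element `x` outside `O_p` with `x ^ p` inside
  obtain ⟨x, hxP, k, hxk, hxp⟩ : ∃ x : G, x ∉ pCore p G ∧ ∃ k : ℕ, x ^ p ^ k = 1 ∧ x ^ p ∈ pCore p G := by
    rw [Subgroup.index] at hdvd
    obtain ⟨y, hy⟩ := exists_prime_orderOf_dvd_card' p hdvd
    have hy0 : y ^ p = 1 := by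
      have h := pow_orderOf_eq_one y
      rwa [hy] at h
    have hy1 : y ^ p ^ 1 = 1 := by rw [pow_one]; exact hy0
    obtain ⟨x, rfl, k, hk⟩ := ExpDrop.exists_lift (QuotientGroup.mk' (pCore p G))
      (QuotientGroup.mk'_surjective _) hy1
    refine ⟨x, ?_, k, hk, ?_⟩
    · intro h
      rw [show QuotientGroup.mk' (pCore p G) x = 1 from (QuotientGroup.eq_one_iff x).mpr h, orderOf_one] at hy
      exact hp.out.one_lt.ne hy
    · rw [pow_one, ← map_pow] at hy1
      exact (QuotientGroup.eq_one_iff _).mp hy1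
  set T : Module.End (ZMod p) V := (φ x : Module.End (ZMod p) V) with hT
  have hφx : φ x ^ p = 1 := by
    rw [← map_pow]
    exact MonoidHom.mem_ker.mp (by rw [hker]; exact hxp)
  have hTp : T ^ p = 1 := by
    have h2 := congrArg (LinearEquiv.automorphismGroup.toLinearMapMonoidHom (R := ZMod p) (M := V)) hφx
    rw [map_pow, map_one] at h2
    exact h2
  have hfr : Finite φ.range := Finite.of_surjective _ φ.rangeRestrict_surjective
  have hord : orderOf (φ x) = p ^ 1 := by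
    rw [pow_one]
    refine orderOf_eq_prime hφx ?_
    intro h
    exact hxP (by rw [← hker]; exact MonoidHom.mem_ker.mpr h)
  set ν : Module.End (ZMod p) V := T - 1 with hν
  have hνp : ν ^ p = 0 := by
    have h1 := PLocal.HHBUnip.geom_eq (ZMod p) p T 1
    have h2 : (T - 1) ^ p = T ^ p - 1 := by
      have h3 := congrArg (Polynomial.aeval T)
        (sub_pow_char (R := Polynomial (ZMod p)) (p := p) (Polynomial.X) 1)
      simpa using h3
    rw [hν, h2, hTp, sub_self]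
  have hνne : ν ^ (p - 1) ≠ 0 := by
    intro h0
    rcases S0633.bound (H := φ.range) (Lib.PSolvable.IsPSolvable_of_surjective p hsol φ.rangeRestrict
        φ.rangeRestrict_surjective) (ExpDrop.pCore_range_eq_bot φ hker) (φ x) ⟨x, rfl⟩ 1 le_rfl hord _ h0
      with h | ⟨n₀, q, m, h1, h2, h3, h4, h5, h6, h7⟩
    · have : 0 < p := hp.out.pos
      rw [pow_one] at h
      omega
    · apply hnf
      have hodd : Odd p := hp.out.odd_of_ne_two hp2
      have h8 : 2 ∣ p ^ n₀ - 1 := by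
        have : Odd (p ^ n₀) := hodd.pow
        obtain ⟨a, ha⟩ := this
        exact ⟨a, by omega⟩
      rw [h5] at h8
      have hq2 : q = 2 := ((Nat.prime_dvd_prime_iff_eq Nat.prime_two h3).mp
        (Nat.prime_two.dvd_of_dvd_pow h8)).symm
      have h9 : p - 1 ∣ 2 ^ m := by
        rw [← hq2, ← h5]
        simpa using Nat.sub_dvd_pow_sub_pow p 1 n₀
      obtain ⟨k, -, hk⟩ := (Nat.dvd_prime_pow Nat.prime_two).mp h9
      exact ⟨k, by have := hp.out.pos; omega⟩
  obtain ⟨v, hv⟩ : ∃ v, (ν ^ (p - 1)) v ≠ 0 := by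
    by_contra hcon
    push Not at hcon
    exact hνne (LinearMap.ext hcon)
  obtain ⟨l, hl⟩ : ∃ l : V →ₗ[ZMod p] ZMod p, l ((ν ^ (p - 1)) v) ≠ 0 := by
    by_contra hcon
    push Not at hcon
    exact hv ((Module.forall_dual_apply_eq_zero_iff (ZMod p) _).mp hcon)
  -- the element `t`
  set w₀ : V := (π ⟨x ^ p, hxp⟩).toAdd with hw₀
  have hTw₀ : ν w₀ = 0 := by
    have h1 : x * (⟨x ^ p, hxp⟩ : pCore p G) * x⁻¹ ∈ pCore p G := hPn.conj_mem _ hxp x
    have h2 := hφ x ⟨x ^ p, hxp⟩ h1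
    have h3 : (⟨x * (⟨x ^ p, hxp⟩ : pCore p G) * x⁻¹, h1⟩ : pCore p G) = ⟨x ^ p, hxp⟩ := by
      apply Subtype.ext
      show x * x ^ p * x⁻¹ = x ^ p
      rw [← pow_succ', pow_succ, mul_inv_cancel_right]
    rw [h3] at h2
    show T w₀ - w₀ = 0
    rw [sub_eq_zero]
    exact h2.symm
  obtain ⟨u₀, hu₀⟩ := hπ (Multiplicative.ofAdd ((-(l w₀) / l ((ν ^ (p - 1)) v)) • v))
  set t : G := (u₀ : G) * x with ht
  have hφt : φ t = φ x := by
    rw [ht, map_mul, MonoidHom.mem_ker.mp (by rw [hker]; exact u₀.2 : (u₀ : G) ∈ φ.ker), one_mul]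
  obtain ⟨n, hn1, hn2⟩ := ExpDrop.norm_formula (pCore p G) φ π hφ x u₀ p
  have htpe : t ^ p = ((n * ⟨x ^ p, hxp⟩ : pCore p G) : G) := hn1
  have htp : t ^ p ∈ pCore p G := by rw [htpe]; exact (n * ⟨x ^ p, hxp⟩ : pCore p G).2
  have htP : t ∉ pCore p G := by
    intro h
    apply hxP
    rw [← hker] at h ⊢
    rw [MonoidHom.mem_ker] at h ⊢
    rw [← hφt, h]
  have hgeom : ∑ i ∈ Finset.range p, T ^ i = ν ^ (p - 1) := by
    have h1 := PLocal.HHBUnip.geom_eq (ZMod p) p T 1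
    rwa [pow_one] at h1
  have hπt : (π ⟨t ^ p, htp⟩).toAdd = (ν ^ (p - 1)) ((-(l w₀) / l ((ν ^ (p - 1)) v)) • v) + w₀ := by
    have h1 : (⟨t ^ p, htp⟩ : pCore p G) = n * ⟨x ^ p, hxp⟩ := Subtype.ext htpe
    rw [h1, map_mul, toAdd_mul, hn2, hu₀, hgeom]
    rfl
  have htk : IsPGroup p (zpowers t) := by
    obtain ⟨s, hs⟩ := ExpDrop.pElt_mul (pCore p G) hPp hxk u₀
    rintro ⟨y, i, rfl⟩
    refine ⟨s, Subtype.ext ?_⟩
    show (t ^ i) ^ p ^ s = 1
    rw [← zpow_natCast, ← zpow_mul, mul_comm, zpow_mul, zpow_natCast, hs, one_zpow]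
  refine ⟨pCore p G ⊔ zpowers t, hPp.to_sup_of_normal_left htk, ?_⟩
  set T₀ := pCore p G ⊔ zpowers t with hT₀
  have hle : pCore p G ≤ T₀ := le_sup_left
  have htT : t ∈ T₀ := Subgroup.mem_sup_right (mem_zpowers t)
  let P' : Subgroup T₀ := (pCore p G).subgroupOf T₀
  have hP'n : P'.Normal := inferInstance
  let e : P' →* pCore p G := (subgroupOfEquivOfLe hle).toMonoidHom
  have he : ∀ u : P', ((e u : pCore p G) : G) = ((u : T₀) : G) := fun u => rfl
  let Ψ : Multiplicative V →* Multiplicative (Fin p → ZMod p) :=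
    AddMonoidHom.toMultiplicative (Psi ν l).toAddMonoidHom
  have hΨ : ∀ w : Multiplicative V, (Ψ w).toAdd = Psi ν l w.toAdd := fun w => rfl
  have hΨs : Function.Surjective Ψ := fun y => by
    obtain ⟨w, hw⟩ := Psi_surjective ν l hνp v hl y.toAdd
    exact ⟨Multiplicative.ofAdd w, congrArg Multiplicative.ofAdd hw⟩
  refine exists_wreath P' (Ψ.comp (π.comp e)) ?_ ⟨t, htT⟩ ?_ ?_ ?_ ?_ ?_
  · exact hΨs.comp (hπ.comp (subgroupOfEquivOfLe hle).surjective)
  · rw [eq_top_iff]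
    rintro ⟨y, hy⟩ -
    obtain ⟨a, ha, b, hb, rfl⟩ := (Subgroup.mem_sup_of_normal_left).mp hy
    obtain ⟨i, rfl⟩ := hb
    have h1 : (⟨a * (fun x => t ^ x) i, hy⟩ : T₀) = ⟨a, hle ha⟩ * (⟨t, htT⟩ : T₀) ^ i := by
      apply Subtype.ext
      rw [Subgroup.coe_mul, Subgroup.coe_zpow]
    rw [h1]
    exact Subgroup.mul_mem_sup ha ⟨i, rfl⟩
  · intro h
    exact htP h
  · exact htp
  · apply Multiplicative.toAdd.injective
    show Psi ν l (π ⟨t ^ p, htp⟩).toAdd = 0
    rw [hπt]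
    funext j
    rw [Psi_apply, Pi.zero_apply, map_add, ← Module.End.mul_apply, ← pow_add, map_add]
    by_cases hj : (j : ℕ) = 0
    · rw [hj, zero_add, pow_zero, Module.End.one_apply, map_smul, map_smul, smul_eq_mul,
        div_mul_cancel₀ _ hl, neg_add_cancel]
    · obtain ⟨i, hi⟩ : ∃ i, (j : ℕ) = i + 1 := ⟨j - 1, by omega⟩
      have h1 : (ν ^ (j : ℕ)) w₀ = 0 := by
        rw [hi, pow_succ, Module.End.mul_apply, hTw₀, map_zero]
      have h2 : (j : ℕ) + (p - 1) = p + i := by have := hp.out.pos; omega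
      rw [h1, h2, pow_add, hνp, zero_mul, LinearMap.zero_apply, map_zero, add_zero]
  · intro u h
    have h1 : t * (e u) * t⁻¹ ∈ pCore p G := hPn.conj_mem _ (e u).2 t
    have h2 := hφ t (e u) h1
    show Psi ν l (π (e ⟨_, h⟩)).toAdd = A p (Psi ν l (π (e u)).toAdd)
    have h3 : e ⟨(⟨t, htT⟩ : T₀) * u * (⟨t, htT⟩ : T₀)⁻¹, h⟩ = ⟨t * (e u) * t⁻¹, h1⟩ := rfl
    rw [h3, h2, ← Psi_one_add ν l hνp]
    congr 1
    rw [hφt]
    show T _ = _ + (T - 1) _
    rw [LinearMap.sub_apply, Module.End.one_apply]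
    abel

end Cfsg.Agent.H450.WreathSection
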